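/-
Sets orthogonal to the octads through given points.
-/
import Cfsg.Agent.Lib.SteinerU.Data
import Cfsg.Agent.Lib.M24.Tools
import Cfsg.Agent.Lib.Golay.LeechIndex

set_option autoImplicit false

namespace Cfsg.Agent.Lib.SteinerU

open Cfsg Cfsg.Agent.Lib.Golay Cfsg.Agent.Lib.M24

/-- The word of a set. -/
def chi (Z : Finset GolayPt) : GolayPt → ZMod 2 := fun i => if i ∈ Z then 1 else 0

theorem support_chi (Z : Finset GolayPt) : support₂ (chi Z) = Z := by
  ext i
  simp only [support₂, chi]
  by_cases h : i ∈ Z <;> simp [h]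

/-- The inner product of a set with a mask. -/
def dW (Z : Finset GolayPt) (m : ℕ) : ZMod 2 := ∑ i, chi Z i * wordOf m i

theorem dW_xor (Z : Finset GolayPt) (a b : ℕ) : dW Z (a ^^^ b) = dW Z a + dW Z b := by
  simp only [dW, wordOf_xor, Pi.add_apply, mul_add, Finset.sum_add_distrib]

theorem dW_zero (Z : Finset GolayPt) : dW Z 0 = 0 := by
  simp [dW, wordOf]

theorem dW_xorL (Z : Finset GolayPt) : ∀ l : List ℕ, (∀ m ∈ l, dW Z m = 0) → dW Z (xorL l) = 0
  | [], _ => dW_zero Z
  | a :: l, h => by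
    rw [xorL, dW_xor, h a (by simp), dW_xorL Z l (fun m hm => h m (by simp [hm])), add_zero]

theorem dW_eq_card (Z : Finset GolayPt) (m : ℕ) : dW Z m = ((Z ∩ finOf m).card : ZMod 2) := by
  classical
  have h : ∀ i, chi Z i * wordOf m i = if i ∈ Z ∩ finOf m then 1 else 0 := by
    intro i
    simp only [chi, wordOf, Finset.mem_inter, mem_finOf]
    by_cases h1 : i ∈ Z <;> by_cases h2 : m.testBit (idx i) = true <;> simp [h1, h2]
  rw [dW, Finset.sum_congr rfl (fun i _ => h i), Finset.sum_boole]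
  congr 2
  ext i
  simp

theorem dW_of_even {Z : Finset GolayPt} {m : ℕ} (h : Even (Z ∩ finOf m).card) : dW Z m = 0 := by
  rw [dW_eq_card]
  exact (ZMod.natCast_eq_zero_iff_even).2 h

theorem dW_of_odd {Z : Finset GolayPt} {m : ℕ} (h : Odd (Z ∩ finOf m).card) : dW Z m = 1 := by
  rw [dW_eq_card]
  exact (ZMod.natCast_eq_one_iff_odd).2 h

/-! ### Self-duality -/

/-- The inner product as a bilinear form. -/
noncomputable def dotU : LinearMap.BilinForm (ZMod 2) (GolayPt → ZMod 2) :=
  LinearMap.mk₂ (ZMod 2) (fun u v => ∑ i, u i * v i)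
    (by intro a b c; simp [add_mul, Finset.sum_add_distrib])
    (by
      intro r a b
      simp only [Pi.smul_apply, smul_eq_mul]
      rw [Finset.mul_sum]
      exact Finset.sum_congr rfl (fun i _ => mul_assoc _ _ _))
    (by intro a b c; simp [mul_add, Finset.sum_add_distrib])
    (by
      intro r a b
      simp only [Pi.smul_apply, smul_eq_mul]
      rw [Finset.mul_sum]
      exact Finset.sum_congr rfl (fun i _ => mul_left_comm _ _ _))

theorem dotU_apply (u v : GolayPt → ZMod 2) : dotU u v = ∑ i, u i * v i := rfl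

theorem dotU_nondeg : (dotU).Nondegenerate := by
  have hsep : ∀ u : GolayPt → ZMod 2, (∀ v : GolayPt → ZMod 2, dotU u v = 0) → u = 0 := by
    intro u hu
    funext i
    have := hu (Pi.single i 1)
    rw [dotU_apply] at this
    simpa [Finset.sum_eq_single i, Pi.single_apply] using this
  have hsym : ∀ u v : GolayPt → ZMod 2, dotU u v = dotU v u := by
    intro u v
    simp only [dotU_apply, mul_comm]
  refine ⟨hsep, ?_⟩
  intro u hu
  exact hsep u (fun v => by rw [hsym]; exact hu v)

theorem finrank_code : Module.finrank (ZMod 2) golayCode = 12 := by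
  have h := Module.natCard_eq_pow_finrank (K := ZMod 2) (V := golayCode)
  have h1 : Nat.card golayCode = 2 ^ 12 := Cfsg.Agent.Lib.Golay.Leech.card_G
  rw [h1, Nat.card_zmod] at h
  exact (Nat.pow_right_injective (le_refl 2) h).symm

/-- A word orthogonal to the code lies in the code. -/
theorem self_dual' {u : GolayPt → ZMod 2} (hu : ∀ c ∈ golayCode, ∑ i, u i * c i = 0) : u ∈ golayCode := by
  have hle : golayCode ≤ dotU.orthogonal golayCode := by
    intro x hx
    rw [LinearMap.BilinForm.mem_orthogonal_iff]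
    intro n hn
    show dotU n x = 0
    rw [dotU_apply]
    exact dot_self_orthogonal n x hn hx
  have hfr : Module.finrank (ZMod 2) (dotU.orthogonal golayCode) = 12 := by
    have h := LinearMap.BilinForm.finrank_orthogonal dotU_nondeg golayCode
    rw [finrank_code] at h
    rw [h]
    simp [Module.finrank_fintype_fun_eq_card]
  have heq : golayCode = dotU.orthogonal golayCode :=
    Submodule.eq_of_le_of_finrank_eq hle (by rw [finrank_code, hfr])
  rw [heq, LinearMap.BilinForm.mem_orthogonal_iff]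
  intro n hn
  show dotU n u = 0
  rw [dotU_apply]
  have := hu n hn
  simpa [mul_comm] using this

/-- A set orthogonal to the generators of the code has its word in the code. -/
theorem mem_of_E {Z : Finset GolayPt} (h : ∀ e ∈ E, dW Z e = 0) : chi Z ∈ golayCode := by
  apply self_dual'
  intro c hc
  apply code_induction (P := fun c => ∑ i, chi Z i * c i = 0) _ _ (fun e he => h e he) hc
  · simp
  · intro v w hv hw
    simp only [Pi.add_apply, mul_add, Finset.sum_add_distrib, hv, hw, add_zero]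

theorem mem_of_tab {Z : Finset GolayPt} {t : List (ℕ × List ℕ)} (h1 : t.map Prod.fst = E)
    (h2 : ∀ x ∈ t, xorL x.2 = x.1 ∧ ∀ m ∈ x.2, dW Z m = 0) : chi Z ∈ golayCode := by
  apply mem_of_E
  intro e he
  rw [← h1, List.mem_map] at he
  obtain ⟨x, hx, rfl⟩ := he
  have := h2 x hx
  rw [← this.1]
  exact dW_xorL Z _ this.2

/-- Octads of masks. -/
theorem finOf_oct {m : ℕ} (h : m ∈ octadL) : finOf m ∈ octads := (mem_octads_iff _).2 ⟨m, h, rfl⟩

/-- The set is an octad if it has eight points and its word is in the code. -/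
theorem octad_of_chi {Z : Finset GolayPt} (h : chi Z ∈ golayCode) (hc : Z.card = 8) : Z ∈ octads := by
  have := octad_of_word h (by rw [support_chi, hc])
  rwa [support_chi] at this

abbrev pP : GolayPt := pt 23
abbrev pQ : GolayPt := pt 0
abbrev pR : GolayPt := pt 1

/-- First case: orthogonal to all octads through the first point. -/
theorem L1 {Z : Finset GolayPt} (h : ∀ O ∈ octads, pP ∈ O → Even (Z ∩ O).card) : chi Z ∈ golayCode := by
  apply mem_of_tab t1_ok.1
  intro x hx
  refine ⟨(t1_ok.2 x hx).1, fun m hm => ?_⟩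
  have h1 := t1_ok.2 x hx
  have h2 := w1_ok m (h1.2 m hm)
  apply dW_of_even
  apply h _ (finOf_oct h2.1)
  rw [mem_finOf, idx_pt (by norm_num)]
  exact h2.2

theorem dW_add_point {R : Finset GolayPt} {a : GolayPt} (ha : a ∉ R) (m : ℕ) :
    dW (insert a R) m = dW R m + (if m.testBit (idx a) then 1 else 0) := by
  have h : ∀ i, chi (insert a R) i * wordOf m i = chi R i * wordOf m i + if i = a then wordOf m i else 0 := by
    intro i
    simp only [chi, Finset.mem_insert]
    by_cases h1 : i = a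
    · subst h1
      simp [ha]
    · simp [h1]
  rw [dW, Finset.sum_congr rfl (fun i _ => h i), Finset.sum_add_distrib, Finset.sum_ite_eq' Finset.univ a]
  simp [dW, wordOf]

theorem bit_pP (m : ℕ) : m.testBit (idx pP) = m.testBit 23 := by rw [idx_pt (by norm_num)]
theorem bit_pQ (m : ℕ) : m.testBit (idx pQ) = m.testBit 0 := by rw [idx_pt (by norm_num)]
theorem bit_pR (m : ℕ) : m.testBit (idx pR) = m.testBit 1 := by rw [idx_pt (by norm_num)]

theorem one_add_one' : (1 : ZMod 2) + 1 = 0 := by decide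

/-- Second case: odd on the octads through two points. -/
theorem L2 {Z : Finset GolayPt} (hP : pP ∉ Z) (hQ : pQ ∉ Z)
    (h : ∀ O ∈ octads, pP ∈ O → pQ ∈ O → Odd (Z ∩ O).card) :
    chi (insert pP Z) ∈ golayCode ∨ chi (insert pQ Z) ∈ golayCode := by
  have hw : ∀ m ∈ w2L, dW Z m = 1 ∧ m.testBit 23 = true ∧ m.testBit 0 = true := by
    intro m hm
    have h2 := w2_ok m hm
    refine ⟨dW_of_odd (h _ (finOf_oct h2.1) ?_ ?_), h2.2.1, h2.2.2⟩
    · rw [mem_finOf, bit_pP]; exact h2.2.1
    · rw [mem_finOf, bit_pQ]; exact h2.2.2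
  have hc := c21_ok
  have key : ∀ W : Finset GolayPt, (∀ m ∈ w2L, dW W m = 0) → dW W c21 = 0 → chi W ∈ golayCode := by
    intro W h1 h2
    apply mem_of_tab t2_ok.1
    intro x hx
    refine ⟨(t2_ok.2 x hx).1, fun m hm => ?_⟩
    rcases (t2_ok.2 x hx).2 m hm with hm' | rfl
    · exact h1 m hm'
    · exact h2
  have hP' : ∀ m, dW (insert pP Z) m = dW Z m + (if m.testBit 23 then 1 else 0) := by
    intro m; rw [dW_add_point hP, bit_pP]
  have hQ' : ∀ m, dW (insert pQ Z) m = dW Z m + (if m.testBit 0 then 1 else 0) := by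
    intro m; rw [dW_add_point hQ, bit_pQ]
  have hcases : dW Z c21 = 1 ∨ dW Z c21 = 0 := by
    generalize dW Z c21 = x; revert x; decide
  rcases hcases with h1 | h1
  · left
    apply key
    · intro m hm
      obtain ⟨a, b, _⟩ := hw m hm
      rw [hP', a, b]; simp [one_add_one']
    · rw [hP', h1, hc.2.1]; simp [one_add_one']
  · right
    apply key
    · intro m hm
      obtain ⟨a, _, b⟩ := hw m hm
      rw [hQ', a, b]; simp [one_add_one']
    · rw [hQ', h1, hc.2.2]; simp

/-- Third case: even on the octads through three points, for a set of six points. -/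
theorem L3 {Z : Finset GolayPt} (hP : pP ∉ Z) (hQ : pQ ∉ Z) (hR : pR ∉ Z) (hcard : Z.card = 6)
    (h : ∀ O ∈ octads, pP ∈ O → pQ ∈ O → pR ∈ O → Even (Z ∩ O).card) :
    chi (insert pP (insert pQ Z)) ∈ golayCode ∨ chi (insert pP (insert pR Z)) ∈ golayCode ∨
      chi (insert pQ (insert pR Z)) ∈ golayCode := by
  have hw : ∀ m ∈ w3L, dW Z m = 0 ∧ m.testBit 23 = true ∧ m.testBit 0 = true ∧ m.testBit 1 = true := by
    intro m hm
    have h2 := w3_ok m hm
    refine ⟨dW_of_even (h _ (finOf_oct h2.1) ?_ ?_ ?_), h2.2.1, h2.2.2.1, h2.2.2.2⟩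
    · rw [mem_finOf, bit_pP]; exact h2.2.1
    · rw [mem_finOf, bit_pQ]; exact h2.2.2.1
    · rw [mem_finOf, bit_pR]; exact h2.2.2.2
  have hc1 := c31_ok
  have hc2 := c32_ok
  have key : ∀ W : Finset GolayPt, (∀ m ∈ w3L, dW W m = 0) → dW W c31 = 0 → dW W c32 = 0 → chi W ∈ golayCode := by
    intro W h1 h2 h3
    apply mem_of_tab t3_ok.1
    intro x hx
    refine ⟨(t3_ok.2 x hx).1, fun m hm => ?_⟩
    rcases (t3_ok.2 x hx).2 m hm with hm' | rfl | rfl
    · exact h1 m hm'
    · exact h2
    · exact h3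
  have hPi : ∀ (W : Finset GolayPt), pP ∉ W → ∀ m, dW (insert pP W) m = dW W m + (if m.testBit 23 then 1 else 0) := by
    intro W hW m; rw [dW_add_point hW, bit_pP]
  have hQi : ∀ (W : Finset GolayPt), pQ ∉ W → ∀ m, dW (insert pQ W) m = dW W m + (if m.testBit 0 then 1 else 0) := by
    intro W hW m; rw [dW_add_point hW, bit_pQ]
  have hRi : ∀ (W : Finset GolayPt), pR ∉ W → ∀ m, dW (insert pR W) m = dW W m + (if m.testBit 1 then 1 else 0) := by
    intro W hW m; rw [dW_add_point hW, bit_pR]
  have hPQ : pP ≠ pQ := by decide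
  have hPR : pP ≠ pR := by decide
  have hQR : pQ ≠ pR := by decide
  have hPQZ : pP ∉ insert pQ Z := by simp [hPQ, hP]
  have hPRZ : pP ∉ insert pR Z := by simp [hPR, hP]
  have hQRZ : pQ ∉ insert pR Z := by simp [hQR, hQ]
  have hcases : ∀ x : ZMod 2, x = 1 ∨ x = 0 := by decide
  rcases hcases (dW Z c31) with h1 | h1 <;> rcases hcases (dW Z c32) with h2 | h2
  · left
    apply key
    · intro m hm
      obtain ⟨a, b, c, _⟩ := hw m hm
      rw [hPi _ hPQZ, hQi _ hQ, a, b, c]; simp [one_add_one']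
    · rw [hPi _ hPQZ, hQi _ hQ, h1, hc1.2.1, hc1.2.2.1]; simp [one_add_one']
    · rw [hPi _ hPQZ, hQi _ hQ, h2, hc2.2.1, hc2.2.2.1]; simp [one_add_one']
  · right; left
    apply key
    · intro m hm
      obtain ⟨a, b, _, c⟩ := hw m hm
      rw [hPi _ hPRZ, hRi _ hR, a, b, c]; simp [one_add_one']
    · rw [hPi _ hPRZ, hRi _ hR, h1, hc1.2.1, hc1.2.2.2]; simp [one_add_one']
    · rw [hPi _ hPRZ, hRi _ hR, h2, hc2.2.1, hc2.2.2.2]; simp
  · right; right
    apply key
    · intro m hm
      obtain ⟨a, _, b, c⟩ := hw m hm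
      rw [hQi _ hQRZ, hRi _ hR, a, b, c]; simp [one_add_one']
    · rw [hQi _ hQRZ, hRi _ hR, h1, hc1.2.2.1, hc1.2.2.2]; simp
    · rw [hQi _ hQRZ, hRi _ hR, h2, hc2.2.2.1, hc2.2.2.2]; simp [one_add_one']
  · exfalso
    have hmem : chi Z ∈ golayCode := by
      apply key
      · intro m hm; exact (hw m hm).1
      · exact h1
      · exact h2
    have hw6 := code_weight hmem
    rw [support_chi, hcard] at hw6
    omega

end Cfsg.Agent.Lib.SteinerU
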