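/-
Embedding designs into the octads of the length-24 code, one point at a time.
-/
import Cfsg.Agent.Lib.SteinerU.Perp
import Cfsg.Agent.Lib.Golay.Steiner
import Cfsg.Agent.S0351
import Cfsg.Agent.S5626

set_option autoImplicit false

universe u

namespace Cfsg.Agent.Lib.SteinerU

open Cfsg Cfsg.Agent.Lib.Golay Cfsg.Agent.Lib.M24
open scoped Pointwise

section basic

variable {α : Type u}

/-- An embedding of a design in the octads through a fixed set `S`. -/
structure Emb (S : Finset GolayPt) (B : Set (Finset α)) (j : α → GolayPt) : Prop where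
  inj : Function.Injective j
  avoid : ∀ x, j x ∉ S
  cover : ∀ y, y ∉ S → ∃ x, j x = y
  blocks : ∀ b ∈ B, b.image j ∪ S ∈ octads

variable {S : Finset GolayPt} {B : Set (Finset α)} {j : α → GolayPt}

theorem Emb.disj (h : Emb S B j) (a : Finset α) : Disjoint (a.image j) S := by
  rw [Finset.disjoint_left]
  intro y hy hyS
  obtain ⟨x, _, rfl⟩ := Finset.mem_image.1 hy
  exact h.avoid x hyS

theorem union_cancel {X Y S : Finset GolayPt} (hX : Disjoint X S) (hY : Disjoint Y S)
    (h : X ∪ S = Y ∪ S) : X = Y := by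
  ext y
  constructor
  · intro hy
    have : y ∈ Y ∪ S := h ▸ Finset.mem_union_left _ hy
    rcases Finset.mem_union.1 this with h1 | h1
    · exact h1
    · exact absurd h1 (Finset.disjoint_left.1 hX hy)
  · intro hy
    have : y ∈ X ∪ S := h ▸ Finset.mem_union_left _ hy
    rcases Finset.mem_union.1 this with h1 | h1
    · exact h1
    · exact absurd h1 (Finset.disjoint_left.1 hY hy)

theorem Emb.image_inj (h : Emb S B j) {a b : Finset α} (hab : a.image j = b.image j) : a = b :=
  Finset.image_injective h.inj hab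

/-- Every octad through `S` comes from a block. -/
theorem Emb.surj (h : Emb S B j) {t k : ℕ} (hB : IsSteinerSystem t k B) (ht : S.card + t = 5)
    {O : Finset GolayPt} (hO : O ∈ octads) (hS : S ⊆ O) : ∃ b ∈ B, b.image j ∪ S = O := by
  classical
  have hc : (O \ S).card = 8 - S.card := by
    rw [Finset.card_sdiff_of_subset hS, octad_card hO]
  obtain ⟨T, hT, hTc⟩ := Finset.exists_subset_card_eq (s := O \ S) (n := t) (by omega)
  have hTS : ∀ y ∈ T, y ∉ S := fun y hy => (Finset.mem_sdiff.1 (hT hy)).2
  let T' : Finset α := T.preimage j h.inj.injOn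
  have hT' : T'.image j = T := by
    ext y
    simp only [T', Finset.mem_image, Finset.mem_preimage]
    constructor
    · rintro ⟨x, hx, rfl⟩; exact hx
    · intro hy
      obtain ⟨x, rfl⟩ := h.cover y (hTS y hy)
      exact ⟨x, hy, rfl⟩
  have hT'c : T'.card = t := by
    rw [← hTc, ← hT', Finset.card_image_of_injective _ h.inj]
  obtain ⟨b, ⟨hb, hsub⟩, -⟩ := hB.2 T' hT'c
  refine ⟨b, hb, ?_⟩
  have hd : Disjoint T S := Finset.disjoint_left.2 hTS
  have hcard : (T ∪ S).card = 5 := by
    rw [Finset.card_union_of_disjoint hd, hTc]; omega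
  apply octad_unique hcard (h.blocks b hb) hO
  · apply Finset.union_subset_union_left
    rw [← hT']
    exact Finset.image_subset_image hsub
  · apply Finset.union_subset
    · exact fun y hy => (Finset.mem_sdiff.1 (hT hy)).1
    · exact hS

/-- Membership in a design through an embedding. -/
theorem Emb.mem_iff (h : Emb S B j) {t k : ℕ} (hB : IsSteinerSystem t k B) (ht : S.card + t = 5)
    (b : Finset α) : b ∈ B ↔ b.image j ∪ S ∈ octads := by
  refine ⟨h.blocks b, fun hO => ?_⟩
  obtain ⟨c, hc, hcO⟩ := h.surj hB ht hO Finset.subset_union_right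
  have := union_cancel (h.disj c) (h.disj b) hcO
  rwa [← h.image_inj this]

/-- Two embeddings with the same fixed set give an isomorphism. -/
theorem Emb.iso {β : Type*} [DecidableEq β] {B' : Set (Finset β)} {j' : β → GolayPt}
    (h : Emb S B j) (h' : Emb S B' j') {t k : ℕ} (hB : IsSteinerSystem t k B)
    (hB' : IsSteinerSystem t k B') (ht : S.card + t = 5) : SetSystemIso B B' := by
  choose f hf using fun x => h'.cover (j x) (h.avoid x)
  have hinj : Function.Injective f := by
    intro a b hab
    apply h.inj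
    rw [← hf a, ← hf b, hab]
  have hsur : Function.Surjective f := by
    intro y
    obtain ⟨x, hx⟩ := h.cover (j' y) (h'.avoid y)
    exact ⟨x, h'.inj (by rw [hf, hx])⟩
  let e : α ≃ β := Equiv.ofBijective f ⟨hinj, hsur⟩
  have himg : ∀ b : Finset α, (b.image e).image j' = b.image j := by
    classical
    intro b
    rw [Finset.image_image]
    apply Finset.image_congr
    intro x _
    exact hf x
  refine ⟨e, ?_⟩
  ext c
  simp only [Set.mem_image]
  constructor
  · rintro ⟨b, hb, rfl⟩
    rw [h'.mem_iff hB' ht, himg]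
    exact h.blocks b hb
  · intro hc
    have hO := h'.blocks c hc
    obtain ⟨b, hb, hbO⟩ := h.surj hB ht hO Finset.subset_union_right
    refine ⟨b, hb, ?_⟩
    have := union_cancel (h.disj b) (h'.disj c) hbO
    apply h'.image_inj
    rw [himg, this]

end basic

section model

/-- The design cut out on the complement of `S`. -/
def modelOf (S : Finset GolayPt) : Set (Finset {x : GolayPt // x ∉ S}) :=
  {b | b.image Subtype.val ∪ S ∈ octads}

theorem emb_model (S : Finset GolayPt) :
    Emb S (modelOf S) (Subtype.val : {x : GolayPt // x ∉ S} → GolayPt) where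
  inj := Subtype.val_injective
  avoid x := x.2
  cover y hy := ⟨⟨y, hy⟩, rfl⟩
  blocks _ hb := hb

theorem image_val_disj (S : Finset GolayPt) (b : Finset {x : GolayPt // x ∉ S}) :
    Disjoint (b.image Subtype.val) S := (emb_model S).disj b

theorem model_steiner (S : Finset GolayPt) {t : ℕ} (ht : S.card + t = 5) :
    IsSteinerSystem t (8 - S.card) (modelOf S) := by
  constructor
  · intro b hb
    have h := octad_card hb
    rw [Finset.card_union_of_disjoint (image_val_disj S b),
      Finset.card_image_of_injective _ Subtype.val_injective] at h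
    omega
  · intro s hs
    have hd := image_val_disj S s
    have hcard : (s.image Subtype.val ∪ S).card = 5 := by
      rw [Finset.card_union_of_disjoint hd, Finset.card_image_of_injective _ Subtype.val_injective]
      omega
    obtain ⟨O, hO, hsO⟩ := octad_exists hcard
    have hSO : S ⊆ O := Finset.union_subset_right hsO
    let b : Finset {x : GolayPt // x ∉ S} := O.subtype (fun x => x ∉ S)
    have himg : b.image Subtype.val ∪ S = O := by
      ext y
      simp only [b, Finset.mem_union, Finset.mem_image, Finset.mem_subtype, Subtype.exists,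
        exists_and_right, exists_eq_right]
      constructor
      · rintro (⟨_, h⟩ | h)
        · exact h
        · exact hSO h
      · intro h
        by_cases hy : y ∈ S
        · exact Or.inr hy
        · exact Or.inl ⟨hy, h⟩
    have hb : b ∈ modelOf S := by
      show b.image Subtype.val ∪ S ∈ octads
      rw [himg]; exact hO
    refine ⟨b, ⟨hb, ?_⟩, ?_⟩
    · intro x hx
      simp only [b, Finset.mem_subtype]
      exact Finset.union_subset_left hsO (Finset.mem_image_of_mem _ hx)
    · rintro c ⟨hc, hsc⟩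
      have hc' : c.image Subtype.val ∪ S ∈ octads := hc
      have hcO : c.image Subtype.val ∪ S = b.image Subtype.val ∪ S := by
        rw [himg]
        apply octad_unique hcard hc' hO
        · exact Finset.union_subset_union_left (Finset.image_subset_image hsc)
        · exact hsO
      exact Finset.image_injective Subtype.val_injective
        (union_cancel (image_val_disj S c) (image_val_disj S b) hcO)

/-- An isomorphism with the model gives an embedding. -/
theorem emb_of_iso {α : Type u} {S : Finset GolayPt} {B : Set (Finset α)}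
    (h : SetSystemIso B (modelOf S)) : ∃ j : α → GolayPt, Emb S B j := by
  obtain ⟨e, he⟩ := h
  refine ⟨fun x => (e x).1, ?_, fun x => (e x).2, fun y hy => ⟨e.symm ⟨y, hy⟩, by simp⟩, ?_⟩
  · intro a b hab
    exact e.injective (Subtype.ext hab)
  · intro b hb
    have h1 : b.image e ∈ modelOf S := he ▸ Set.mem_image_of_mem _ hb
    have h2 : (b.image e).image Subtype.val ∪ S ∈ octads := h1
    classical
    rw [Finset.image_image] at h2
    exact h2

end model

section step

variable {α : Type u} [DecidableEq α]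

/-- The derived design. -/
def der (B : Set (Finset α)) (p : α) : Set (Finset {a : α // a ≠ p}) :=
  {b' | ∃ b ∈ B, p ∈ b ∧ b' = Finset.subtype (fun a => a ≠ p) b}

/-- A block read off the complement of the point. -/
def xOf {p : α} (j0 : {a : α // a ≠ p} → GolayPt) (b : Finset α) : Finset GolayPt :=
  (Finset.subtype (fun a => a ≠ p) b).image j0

theorem mem_xOf {p : α} {j0 : {a : α // a ≠ p} → GolayPt} {b : Finset α} {y : GolayPt} :
    y ∈ xOf j0 b ↔ ∃ (x : α) (hx : x ≠ p), x ∈ b ∧ j0 ⟨x, hx⟩ = y := by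
  simp only [xOf, Finset.mem_image, Finset.mem_subtype, Subtype.exists]

variable {S' : Finset GolayPt} {B : Set (Finset α)} {p : α} {j0 : {a : α // a ≠ p} → GolayPt}

theorem subtype_ne_card {b : Finset α} (hb : p ∉ b) :
    (Finset.subtype (fun a => a ≠ p) b).card = b.card := by
  rw [Finset.card_subtype, Finset.filter_true_of_mem]
  rintro x hx rfl
  exact hb hx

theorem xOf_card (h0 : Emb S' (der B p) j0) {b : Finset α} (hb : p ∉ b) : (xOf j0 b).card = b.card := by
  rw [xOf, Finset.card_image_of_injective _ h0.inj, subtype_ne_card hb]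

theorem xOf_disj (h0 : Emb S' (der B p) j0) (b : Finset α) : Disjoint (xOf j0 b) S' := h0.disj _

theorem xOf_inter (h0 : Emb S' (der B p) j0) {b c : Finset α} (hb : p ∉ b) :
    (xOf j0 b ∩ xOf j0 c).card = (b ∩ c).card := by
  have h : xOf j0 b ∩ xOf j0 c = xOf j0 (b ∩ c) := by
    ext y
    simp only [Finset.mem_inter, mem_xOf]
    constructor
    · rintro ⟨⟨x, hx, h1, rfl⟩, ⟨x', hx', h2, h3⟩⟩
      have : x' = x := congrArg Subtype.val (h0.inj h3)
      subst this
      exact ⟨x', hx, ⟨h1, h2⟩, rfl⟩
    · rintro ⟨x, hx, h1, rfl⟩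
      obtain ⟨h2, h3⟩ := h1
      exact ⟨⟨x, hx, h2, rfl⟩, ⟨x, hx, h3, rfl⟩⟩
  rw [h, xOf_card h0 (fun hp => hb (Finset.mem_inter.1 hp).1)]

/-- Intersection with an octad from a block through the point. -/
theorem xOf_inter_union (h0 : Emb S' (der B p) j0) {b c : Finset α} (hb : p ∉ b) :
    (xOf j0 b ∩ (xOf j0 c ∪ S')).card = (b ∩ c).card := by
  rw [Finset.inter_union_distrib_left, (Finset.disjoint_iff_inter_eq_empty.1 (xOf_disj h0 b)),
    Finset.union_empty, xOf_inter h0 hb]

/-- Intersection of two octads from blocks off the point. -/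
theorem xOf_union_inter (h0 : Emb S' (der B p) j0) {b c : Finset α} (hb : p ∉ b)
    {Z1 Z2 : Finset GolayPt} (h1 : Z1 ⊆ S') (h2 : Z2 ⊆ S') :
    ((xOf j0 b ∪ Z1) ∩ (xOf j0 c ∪ Z2)).card = (b ∩ c).card + (Z1 ∩ Z2).card := by
  have hd1 : Disjoint (xOf j0 b) Z2 := Finset.disjoint_of_subset_right h2 (xOf_disj h0 b)
  have hd2 : Disjoint Z1 (xOf j0 c) := (Finset.disjoint_of_subset_right h1 (xOf_disj h0 c)).symm
  have h : (xOf j0 b ∪ Z1) ∩ (xOf j0 c ∪ Z2) = (xOf j0 b ∩ xOf j0 c) ∪ (Z1 ∩ Z2) := by
    ext y
    simp only [Finset.mem_inter, Finset.mem_union]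
    constructor
    · rintro ⟨h3 | h3, h4 | h4⟩
      · exact Or.inl ⟨h3, h4⟩
      · exact absurd h4 (Finset.disjoint_left.1 hd1 h3)
      · exact absurd h4 (Finset.disjoint_left.1 hd2 h3)
      · exact Or.inr ⟨h3, h4⟩
    · rintro (⟨h3, h4⟩ | ⟨h3, h4⟩)
      · exact ⟨Or.inl h3, Or.inl h4⟩
      · exact ⟨Or.inr h3, Or.inr h4⟩
  have hd3 : Disjoint (xOf j0 b ∩ xOf j0 c) (Z1 ∩ Z2) :=
    Finset.disjoint_of_subset_left Finset.inter_subset_left
      (Finset.disjoint_of_subset_right (Finset.inter_subset_right) hd1)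
  rw [h, Finset.card_union_of_disjoint hd3, xOf_inter h0 hb]

/-- Octads through the fixed set come from blocks through the point. -/
theorem exists_block_through (h0 : Emb S' (der B p) j0) {t k : ℕ}
    (hD : IsSteinerSystem t k (der B p)) (ht : S'.card + t = 5) {O : Finset GolayPt}
    (hO : O ∈ octads) (hS : S' ⊆ O) : ∃ c ∈ B, p ∈ c ∧ O = xOf j0 c ∪ S' := by
  obtain ⟨b', ⟨c, hc, hpc, rfl⟩, hb⟩ := h0.surj hD ht hO hS
  exact ⟨c, hc, hpc, hb.symm⟩

/-- Octads through the fixed set meet a block off the point as the design dictates. -/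
theorem parity_through (h0 : Emb S' (der B p) j0) {t k : ℕ}
    (hD : IsSteinerSystem t k (der B p)) (ht : S'.card + t = 5) {b : Finset α} (hb : p ∉ b)
    {O : Finset GolayPt} (hO : O ∈ octads) (hS : S' ⊆ O) :
    ∃ c ∈ B, p ∈ c ∧ (xOf j0 b ∩ O).card = (b ∩ c).card := by
  obtain ⟨c, hc, hpc, rfl⟩ := exists_block_through h0 hD ht hO hS
  exact ⟨c, hc, hpc, xOf_inter_union h0 hb⟩

/-- The extended map. -/
def lift (g : Equiv.Perm GolayPt) (a : GolayPt) (p : α) (j0 : {x : α // x ≠ p} → GolayPt) :
    α → GolayPt := fun x => if h : x = p then a else g (j0 ⟨x, h⟩)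

theorem lift_self (g : Equiv.Perm GolayPt) (a : GolayPt) (j0 : {x : α // x ≠ p} → GolayPt) :
    lift g a p j0 p = a := by simp [lift]

theorem lift_ne (g : Equiv.Perm GolayPt) (a : GolayPt) (j0 : {x : α // x ≠ p} → GolayPt) {x : α}
    (h : x ≠ p) : lift g a p j0 x = g (j0 ⟨x, h⟩) := by simp [lift, h]

theorem image_lift_off (g : Equiv.Perm GolayPt) (a : GolayPt) {b : Finset α} (hb : p ∉ b) :
    b.image (lift g a p j0) = g • xOf j0 b := by
  ext y
  simp only [Finset.mem_image, Finset.mem_smul_finset, mem_xOf, Equiv.Perm.smul_def]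
  constructor
  · rintro ⟨x, hx, rfl⟩
    have hne : x ≠ p := fun h => hb (h ▸ hx)
    exact ⟨j0 ⟨x, hne⟩, ⟨x, hne, hx, rfl⟩, (lift_ne g a j0 hne).symm⟩
  · rintro ⟨_, ⟨x, hne, hx, rfl⟩, rfl⟩
    exact ⟨x, hx, lift_ne g a j0 hne⟩

theorem image_lift_on (g : Equiv.Perm GolayPt) (a : GolayPt) {b : Finset α} (hb : p ∈ b) :
    b.image (lift g a p j0) = insert a (g • xOf j0 b) := by
  ext y
  simp only [Finset.mem_image, Finset.mem_insert, Finset.mem_smul_finset, mem_xOf,
    Equiv.Perm.smul_def]
  constructor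
  · rintro ⟨x, hx, rfl⟩
    by_cases hne : x = p
    · subst hne; exact Or.inl (lift_self g a j0)
    · exact Or.inr ⟨j0 ⟨x, hne⟩, ⟨x, hne, hx, rfl⟩, (lift_ne g a j0 hne).symm⟩
  · rintro (rfl | ⟨_, ⟨x, hne, hx, rfl⟩, rfl⟩)
    · exact ⟨p, hb, lift_self g _ j0⟩
    · exact ⟨x, hx, lift_ne g a j0 hne⟩

/-- The extension step. -/
theorem emb_ext {S Z : Finset GolayPt} {a : GolayPt} (h0 : Emb S' (der B p) j0) (ha : a ∉ S)
    (hS' : S' = insert a S) {g : Equiv.Perm GolayPt} (hg : g ∈ M24) (hgS' : g • S' = S')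
    (hgZ : g • Z = S) (hZ : Z ⊆ S')
    (hoff : ∀ b ∈ B, p ∉ b → xOf j0 b ∪ Z ∈ octads) : Emb S B (lift g a p j0) := by
  have hmem : ∀ y, g y ∈ S' ↔ y ∈ S' := by
    intro y
    constructor
    · intro hy
      rw [← hgS'] at hy
      obtain ⟨y', hy', h⟩ := Finset.mem_smul_finset.1 hy
      rwa [← g.injective h]
    · intro hy
      rw [← hgS']
      exact Finset.smul_mem_smul_finset hy
  have haS' : a ∈ S' := hS' ▸ Finset.mem_insert_self _ _
  have hSS' : S ⊆ S' := hS' ▸ Finset.subset_insert _ _
  refine ⟨?_, ?_, ?_, ?_⟩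
  · intro x y hxy
    by_cases hx : x = p <;> by_cases hy : y = p
    · rw [hx, hy]
    · exfalso
      rw [hx, lift_self, lift_ne g a j0 hy] at hxy
      have : g (j0 ⟨y, hy⟩) ∈ S' := hxy ▸ haS'
      exact h0.avoid _ ((hmem _).1 this)
    · exfalso
      rw [hy, lift_self, lift_ne g a j0 hx] at hxy
      have : g (j0 ⟨x, hx⟩) ∈ S' := hxy ▸ haS'
      exact h0.avoid _ ((hmem _).1 this)
    · rw [lift_ne g a j0 hx, lift_ne g a j0 hy] at hxy
      exact congrArg Subtype.val (h0.inj (g.injective hxy))
  · intro x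
    by_cases hx : x = p
    · rw [hx, lift_self]; exact ha
    · rw [lift_ne g a j0 hx]
      intro hS
      rw [← hgZ] at hS
      obtain ⟨y', hy', h⟩ := Finset.mem_smul_finset.1 hS
      have := g.injective h
      rw [this] at hy'
      exact h0.avoid _ (hZ hy')
  · intro y hy
    by_cases hya : y = a
    · exact ⟨p, by rw [lift_self, hya]⟩
    · have hyS' : y ∉ S' := by
        rw [hS', Finset.mem_insert]
        rintro (h | h)
        · exact hya h
        · exact hy h
      have hy2 : g⁻¹ y ∉ S' := by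
        intro h
        apply hyS'
        have := (hmem _).2 h
        simpa using this
      obtain ⟨⟨x, hx⟩, hxe⟩ := h0.cover _ hy2
      refine ⟨x, ?_⟩
      rw [lift_ne g a j0 hx, hxe]
      simp
  · intro b hb
    by_cases hpb : p ∈ b
    · rw [image_lift_on g a hpb]
      have hd : xOf j0 b ∪ S' ∈ octads := h0.blocks _ ⟨b, hb, hpb, rfl⟩
      have := smul_octad hg hd
      rw [Finset.smul_finset_union, hgS'] at this
      convert this using 1
      rw [hS']
      ext y
      simp only [Finset.mem_union, Finset.mem_insert]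
      tauto
    · rw [image_lift_off g a hpb]
      have := smul_octad hg (hoff b hb hpb)
      rwa [Finset.smul_finset_union, hgZ] at this

end step

end Cfsg.Agent.Lib.SteinerU
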