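/-
Each Steiner system of the chain embeds in the octads.
-/
import Cfsg.Agent.Lib.SteinerU.Model

set_option autoImplicit false

universe u

namespace Cfsg.Agent.Lib.SteinerU

open Cfsg Cfsg.Agent.Lib.Golay Cfsg.Agent.Lib.M24 Cfsg.Agent.Lib.Golay.Steiner
open scoped Pointwise

/-- The three base points. -/
def S3 : Finset GolayPt := {pP, pQ, pR}
/-- Two base points. -/
def S2 : Finset GolayPt := {pP, pQ}
/-- One base point. -/
def S1 : Finset GolayPt := {pP}

theorem S3_card : S3.card = 3 := by decide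
theorem S2_card : S2.card = 2 := by decide
theorem S1_card : S1.card = 1 := by decide

theorem card_compl {S : Finset GolayPt} : Fintype.card {x : GolayPt // x ∉ S} = 24 - S.card := by
  rw [Fintype.card_subtype_compl]
  simp [card_golayPt]

variable {α : Type u} [Fintype α] [DecidableEq α]

theorem card_ne (p : α) : Fintype.card {a : α // a ≠ p} = Fintype.card α - 1 := by
  rw [Fintype.card_subtype_compl, Fintype.card_subtype_eq]

/-- Parity in the chain. -/
theorem even_3_6_22 (hα : Fintype.card α = 22) {B : Set (Finset α)} (hB : IsSteinerSystem 3 6 B)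
    {b c : Finset α} (hb : b ∈ B) (hc : c ∈ B) : Even (b ∩ c).card := by
  by_cases hbc : b = c
  · subst hbc
    rw [Finset.inter_self, hB.1 b hb]
    decide
  · rcases inter_3_6_22 hα hB hb hc hbc with h | h <;> rw [h] <;> decide

theorem odd_4_7_23 (hα : Fintype.card α = 23) {B : Set (Finset α)} (hB : IsSteinerSystem 4 7 B)
    {b c : Finset α} (hb : b ∈ B) (hc : c ∈ B) : Odd (b ∩ c).card := by
  by_cases hbc : b = c
  · subst hbc
    rw [Finset.inter_self, hB.1 b hb]
    decide
  · rcases inter_4_7_23 hα hB hb hc hbc with h | h <;> rw [h] <;> decide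

theorem octad_inter_even {O O' : Finset GolayPt} (hO : O ∈ octads) (hO' : O' ∈ octads) :
    Even (O ∩ O').card := even_inter_5_8_24 card_golayPt octads_steiner hO hO'

/-- The plane. -/
theorem exists_emb_21 (hα : Fintype.card α = 21) {B : Set (Finset α)} (hB : IsSteinerSystem 2 5 B) :
    ∃ j : α → GolayPt, Emb S3 B j := by
  apply emb_of_iso
  have hm : IsSteinerSystem 2 5 (modelOf S3) := by
    have := model_steiner S3 (t := 2) (by rw [S3_card])
    rwa [S3_card] at this
  exact Cfsg.Agent.S5626.result hα (by rw [card_compl, S3_card]) hB hm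

theorem select3 {ι : Sort*} {c1 c2 c3 : ι → Prop} (h : ∀ i, c1 i ∨ c2 i ∨ c3 i)
    (h12 : ∀ i j, c1 i → c2 j → False) (h13 : ∀ i j, c1 i → c3 j → False)
    (h23 : ∀ i j, c2 i → c3 j → False) : (∀ i, c1 i) ∨ (∀ i, c2 i) ∨ (∀ i, c3 i) := by
  by_cases h1 : ∀ i, c1 i
  · exact Or.inl h1
  · push Not at h1
    obtain ⟨i0, hi0⟩ := h1
    rcases h i0 with h2 | h2 | h2
    · exact absurd h2 hi0
    · right; left
      intro i
      rcases h i with h3 | h3 | h3
      · exact (h12 i i0 h3 h2).elim
      · exact h3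
      · exact (h23 i0 i h2 h3).elim
    · right; right
      intro i
      rcases h i with h3 | h3 | h3
      · exact (h13 i i0 h3 h2).elim
      · exact (h23 i i0 h3 h2).elim
      · exact h3

theorem select2 {ι : Sort*} {c1 c2 : ι → Prop} (h : ∀ i, c1 i ∨ c2 i)
    (h12 : ∀ i j, c1 i → c2 j → False) : (∀ i, c1 i) ∨ (∀ i, c2 i) := by
  by_cases h1 : ∀ i, c1 i
  · exact Or.inl h1
  · push Not at h1
    obtain ⟨i0, hi0⟩ := h1
    right
    intro i
    have hi := (h i0).resolve_left hi0
    rcases h i with h3 | h3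
    · exact (h12 i i0 h3 hi).elim
    · exact h3

/-- A swap-like element of the group of the code. -/
theorem exists_swap3 (f : GolayPt → GolayPt) (hf : Set.InjOn f (S3 : Set GolayPt)) :
    ∃ g ∈ M24, ∀ x ∈ S3, g x = f x := exists_map_on (by rw [S3_card]; norm_num) f hf

theorem one_smul_S {S : Finset GolayPt} : (1 : Equiv.Perm GolayPt) • S = S := one_smul _ S

/-- Level twenty-two. -/
theorem exists_emb_22 (hα : Fintype.card α = 22) {B : Set (Finset α)} (hB : IsSteinerSystem 3 6 B) :
    ∃ j : α → GolayPt, Emb S2 B j := by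
  obtain ⟨p⟩ : Nonempty α := Fintype.card_pos_iff.1 (by omega)
  have hD : IsSteinerSystem 2 5 (der B p) := Cfsg.Agent.S0351.result (t := 2) (k := 5) hB p
  obtain ⟨j0, h0⟩ := exists_emb_21 (by rw [card_ne, hα]) hD
  have hS' : S3 = insert pR S2 := by decide
  have hR : pR ∉ S2 := by decide
  have hPS : pP ∈ S3 := by decide
  have hQS : pQ ∈ S3 := by decide
  have hRS : pR ∈ S3 := by decide
  let Z1 : Finset GolayPt := {pP, pQ}
  let Z2 : Finset GolayPt := {pP, pR}
  let Z3 : Finset GolayPt := {pQ, pR}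
  have hZ1 : Z1 ⊆ S3 := by decide
  have hZ2 : Z2 ⊆ S3 := by decide
  have hZ3 : Z3 ⊆ S3 := by decide
  have h12 : (Z1 ∩ Z2).card = 1 := by decide
  have h13 : (Z1 ∩ Z3).card = 1 := by decide
  have h23 : (Z2 ∩ Z3).card = 1 := by decide
  have hins : ∀ (a c : GolayPt) (X : Finset GolayPt), insert a (insert c X) = X ∪ {a, c} := by
    intro a c X
    ext y
    simp only [Finset.mem_insert, Finset.mem_union, Finset.mem_singleton]
    tauto
  have hcl : ∀ i : {b : Finset α // b ∈ B ∧ p ∉ b},
      xOf j0 i.1 ∪ Z1 ∈ octads ∨ xOf j0 i.1 ∪ Z2 ∈ octads ∨ xOf j0 i.1 ∪ Z3 ∈ octads := by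
    rintro ⟨b, hb, hpb⟩
    have hd := Finset.disjoint_left.1 (xOf_disj h0 b)
    have hX : (xOf j0 b).card = 6 := by rw [xOf_card h0 hpb, hB.1 b hb]
    have hP : pP ∉ xOf j0 b := fun h => hd h hPS
    have hQ : pQ ∉ xOf j0 b := fun h => hd h hQS
    have hRX : pR ∉ xOf j0 b := fun h => hd h hRS
    have hev : ∀ O ∈ octads, pP ∈ O → pQ ∈ O → pR ∈ O → Even (xOf j0 b ∩ O).card := by
      intro O hO h1 h2 h3
      have hSO : S3 ⊆ O := by
        intro y hy
        simp only [S3, Finset.mem_insert, Finset.mem_singleton] at hy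
        rcases hy with rfl | rfl | rfl <;> assumption
      obtain ⟨c, hc, -, hcard⟩ := parity_through h0 hD (by rw [S3_card]) hpb hO hSO
      rw [hcard]
      exact even_3_6_22 hα hB hb hc
    have hc2 : ∀ a c : GolayPt, a ∉ xOf j0 b → c ∉ xOf j0 b → a ≠ c →
        chi (insert a (insert c (xOf j0 b))) ∈ golayCode → xOf j0 b ∪ {a, c} ∈ octads := by
      intro a c ha hc hac hw
      rw [← hins]
      apply octad_of_chi hw
      rw [Finset.card_insert_of_notMem, Finset.card_insert_of_notMem hc, hX]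
      simp [hac, ha]
    rcases L3 hP hQ hRX hX hev with h | h | h
    · exact Or.inl (hc2 _ _ hP hQ (by decide) h)
    · exact Or.inr (Or.inl (hc2 _ _ hP hRX (by decide) h))
    · exact Or.inr (Or.inr (hc2 _ _ hQ hRX (by decide) h))
  have hpar : ∀ (i i' : {b : Finset α // b ∈ B ∧ p ∉ b}) (Z Z' : Finset GolayPt), Z ⊆ S3 → Z' ⊆ S3 →
      (Z ∩ Z').card = 1 → xOf j0 i.1 ∪ Z ∈ octads → xOf j0 i'.1 ∪ Z' ∈ octads → False := by
    rintro ⟨b, hb, hpb⟩ ⟨c, hc, hpc⟩ Z Z' hZ hZ' hZZ h1 h2
    have h3 := octad_inter_even h1 h2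
    rw [xOf_union_inter h0 hpb hZ hZ', hZZ] at h3
    have h4 := even_3_6_22 hα hB hb hc
    rw [Nat.even_add_one] at h3
    exact h3 h4
  rcases select3 hcl (fun i j => hpar i j _ _ hZ1 hZ2 h12) (fun i j => hpar i j _ _ hZ1 hZ3 h13)
    (fun i j => hpar i j _ _ hZ2 hZ3 h23) with h | h | h
  · exact ⟨_, emb_ext (g := 1) (Z := Z1) h0 hR hS' (Subgroup.one_mem _) one_smul_S one_smul_S hZ1
      (fun b hb hpb => h ⟨b, hb, hpb⟩)⟩
  · -- fix the first point, swap the others
    obtain ⟨g, hg, hgf⟩ := exists_swap3 (fun x => if x = pQ then pR else if x = pR then pQ else x)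
      (by
        intro x hx y hy hxy
        simp only [S3, Finset.coe_insert, Finset.coe_singleton, Set.mem_insert_iff,
          Set.mem_singleton_iff] at hx hy
        rcases hx with rfl | rfl | rfl <;> rcases hy with rfl | rfl | rfl <;>
          first | rfl | (exact absurd hxy (by decide)))
    have h1 : g pP = pP := hgf _ hPS
    have h2 : g pQ = pR := hgf _ hQS
    have h3 : g pR = pQ := hgf _ hRS
    have hgS : g • S3 = S3 := by
      apply smul_eq_of_maps _ rfl
      intro x hx
      simp only [S3, Finset.mem_insert, Finset.mem_singleton] at hx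
      rcases hx with rfl | rfl | rfl
      · rw [h1]; decide
      · rw [h2]; decide
      · rw [h3]; decide
    have hgZ : g • Z2 = S2 := by
      apply smul_eq_of_maps _ (by decide)
      intro x hx
      simp only [Z2, Finset.mem_insert, Finset.mem_singleton] at hx
      rcases hx with rfl | rfl
      · rw [h1]; decide
      · rw [h3]; decide
    exact ⟨_, emb_ext h0 hR hS' hg hgS hgZ hZ2 (fun b hb hpb => h ⟨b, hb, hpb⟩)⟩
  · -- fix the second point, swap the others
    obtain ⟨g, hg, hgf⟩ := exists_swap3 (fun x => if x = pP then pR else if x = pR then pP else x)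
      (by
        intro x hx y hy hxy
        simp only [S3, Finset.coe_insert, Finset.coe_singleton, Set.mem_insert_iff,
          Set.mem_singleton_iff] at hx hy
        rcases hx with rfl | rfl | rfl <;> rcases hy with rfl | rfl | rfl <;>
          first | rfl | (exact absurd hxy (by decide)))
    have h1 : g pP = pR := hgf _ hPS
    have h2 : g pQ = pQ := hgf _ hQS
    have h3 : g pR = pP := hgf _ hRS
    have hgS : g • S3 = S3 := by
      apply smul_eq_of_maps _ rfl
      intro x hx
      simp only [S3, Finset.mem_insert, Finset.mem_singleton] at hx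
      rcases hx with rfl | rfl | rfl
      · rw [h1]; decide
      · rw [h2]; decide
      · rw [h3]; decide
    have hgZ : g • Z3 = S2 := by
      apply smul_eq_of_maps _ (by decide)
      intro x hx
      simp only [Z3, Finset.mem_insert, Finset.mem_singleton] at hx
      rcases hx with rfl | rfl
      · rw [h2]; decide
      · rw [h3]; decide
    exact ⟨_, emb_ext h0 hR hS' hg hgS hgZ hZ3 (fun b hb hpb => h ⟨b, hb, hpb⟩)⟩

/-- Level twenty-three. -/
theorem exists_emb_23 (hα : Fintype.card α = 23) {B : Set (Finset α)} (hB : IsSteinerSystem 4 7 B) :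
    ∃ j : α → GolayPt, Emb S1 B j := by
  obtain ⟨p⟩ : Nonempty α := Fintype.card_pos_iff.1 (by omega)
  have hD : IsSteinerSystem 3 6 (der B p) := Cfsg.Agent.S0351.result (t := 3) (k := 6) hB p
  obtain ⟨j0, h0⟩ := exists_emb_22 (by rw [card_ne, hα]) hD
  have hS' : S2 = insert pQ S1 := by decide
  have hQ1 : pQ ∉ S1 := by decide
  have hPS : pP ∈ S2 := by decide
  have hQS : pQ ∈ S2 := by decide
  let Z1 : Finset GolayPt := {pP}
  let Z2 : Finset GolayPt := {pQ}
  have hZ1 : Z1 ⊆ S2 := by decide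
  have hZ2 : Z2 ⊆ S2 := by decide
  have h12 : (Z1 ∩ Z2).card = 0 := by decide
  have hins : ∀ (a : GolayPt) (X : Finset GolayPt), insert a X = X ∪ {a} := by
    intro a X
    ext y
    simp only [Finset.mem_insert, Finset.mem_union, Finset.mem_singleton]
    tauto
  have hcl : ∀ i : {b : Finset α // b ∈ B ∧ p ∉ b},
      xOf j0 i.1 ∪ Z1 ∈ octads ∨ xOf j0 i.1 ∪ Z2 ∈ octads := by
    rintro ⟨b, hb, hpb⟩
    have hd := Finset.disjoint_left.1 (xOf_disj h0 b)
    have hX : (xOf j0 b).card = 7 := by rw [xOf_card h0 hpb, hB.1 b hb]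
    have hP : pP ∉ xOf j0 b := fun h => hd h hPS
    have hQ : pQ ∉ xOf j0 b := fun h => hd h hQS
    have hev : ∀ O ∈ octads, pP ∈ O → pQ ∈ O → Odd (xOf j0 b ∩ O).card := by
      intro O hO h1 h2
      have hSO : S2 ⊆ O := by
        intro y hy
        simp only [S2, Finset.mem_insert, Finset.mem_singleton] at hy
        rcases hy with rfl | rfl <;> assumption
      obtain ⟨c, hc, -, hcard⟩ := parity_through h0 hD (by rw [S2_card]) hpb hO hSO
      rw [hcard]
      exact odd_4_7_23 hα hB hb hc
    have hc2 : ∀ a : GolayPt, a ∉ xOf j0 b →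
        chi (insert a (xOf j0 b)) ∈ golayCode → xOf j0 b ∪ {a} ∈ octads := by
      intro a ha hw
      rw [← hins]
      apply octad_of_chi hw
      rw [Finset.card_insert_of_notMem ha, hX]
    rcases L2 hP hQ hev with h | h
    · exact Or.inl (hc2 _ hP h)
    · exact Or.inr (hc2 _ hQ h)
  have hpar : ∀ (i i' : {b : Finset α // b ∈ B ∧ p ∉ b}),
      xOf j0 i.1 ∪ Z1 ∈ octads → xOf j0 i'.1 ∪ Z2 ∈ octads → False := by
    rintro ⟨b, hb, hpb⟩ ⟨c, hc, hpc⟩ h1 h2
    have h3 := octad_inter_even h1 h2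
    rw [xOf_union_inter h0 hpb hZ1 hZ2, h12, add_zero] at h3
    have h4 := odd_4_7_23 hα hB hb hc
    exact (Nat.not_even_iff_odd.2 h4) h3
  rcases select2 hcl hpar with h | h
  · exact ⟨_, emb_ext (g := 1) (Z := Z1) h0 hQ1 hS' (Subgroup.one_mem _) one_smul_S one_smul_S hZ1
      (fun b hb hpb => h ⟨b, hb, hpb⟩)⟩
  · obtain ⟨g, hg, hgf⟩ := exists_map_on (u := S2) (by rw [S2_card]; norm_num)
      (fun x => if x = pP then pQ else if x = pQ then pP else x)
      (by
        intro x hx y hy hxy
        simp only [S2, Finset.coe_insert, Finset.coe_singleton, Set.mem_insert_iff,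
          Set.mem_singleton_iff] at hx hy
        rcases hx with rfl | rfl <;> rcases hy with rfl | rfl <;>
          first | rfl | (exact absurd hxy (by decide)))
    have h1 : g pP = pQ := hgf _ hPS
    have h2 : g pQ = pP := hgf _ hQS
    have hgS : g • S2 = S2 := by
      apply smul_eq_of_maps _ rfl
      intro x hx
      simp only [S2, Finset.mem_insert, Finset.mem_singleton] at hx
      rcases hx with rfl | rfl
      · rw [h1]; decide
      · rw [h2]; decide
    have hgZ : g • Z2 = S1 := by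
      apply smul_eq_of_maps _ (by decide)
      intro x hx
      simp only [Z2, Finset.mem_singleton] at hx
      subst hx
      rw [h2]; decide
    exact ⟨_, emb_ext h0 hQ1 hS' hg hgS hgZ hZ2 (fun b hb hpb => h ⟨b, hb, hpb⟩)⟩

/-- Level twenty-four. -/
theorem exists_emb_24 (hα : Fintype.card α = 24) {B : Set (Finset α)} (hB : IsSteinerSystem 5 8 B) :
    ∃ j : α → GolayPt, Emb ∅ B j := by
  obtain ⟨p⟩ : Nonempty α := Fintype.card_pos_iff.1 (by omega)
  have hD : IsSteinerSystem 4 7 (der B p) := Cfsg.Agent.S0351.result (t := 4) (k := 7) hB p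
  obtain ⟨j0, h0⟩ := exists_emb_23 (by rw [card_ne, hα]) hD
  have hS' : S1 = insert pP ∅ := rfl
  have hP1 : pP ∉ (∅ : Finset GolayPt) := by simp
  have hPS : pP ∈ S1 := by decide
  refine ⟨_, emb_ext (g := 1) (Z := ∅) h0 hP1 hS' (Subgroup.one_mem _) one_smul_S one_smul_S
    (Finset.empty_subset _) ?_⟩
  intro b hb hpb
  rw [Finset.union_empty]
  have hd := Finset.disjoint_left.1 (xOf_disj h0 b)
  have hX : (xOf j0 b).card = 8 := by rw [xOf_card h0 hpb, hB.1 b hb]
  apply octad_of_chi _ hX
  apply L1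
  intro O hO h1
  have hSO : S1 ⊆ O := by
    intro y hy
    simp only [S1, Finset.mem_singleton] at hy
    subst hy; exact h1
  obtain ⟨c, hc, -, hcard⟩ := parity_through h0 hD (by rw [S1_card]) hpb hO hSO
  rw [hcard]
  exact even_inter_5_8_24 hα hB hb hc

end Cfsg.Agent.Lib.SteinerU
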