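/-
Permutations preserving the octads through fixed points belong to the group of the code.
-/
import Cfsg.Agent.Lib.SteinerU.Levels
import Cfsg.Agent.S0369

set_option autoImplicit false

universe u

namespace Cfsg.Agent.Lib.SteinerU

open Cfsg Cfsg.Agent.Lib.Golay Cfsg.Agent.Lib.M24
open scoped Pointwise

/-- A self-map of a finite family of sets given by a permutation is onto. -/
theorem surj_of_selfmap {𝒪 : Finset (Finset GolayPt)} {h : Equiv.Perm GolayPt}
    (hm : ∀ O ∈ 𝒪, h • O ∈ 𝒪) {O' : Finset GolayPt} (hO' : O' ∈ 𝒪) : ∃ O'' ∈ 𝒪, h • O'' = O' := by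
  classical
  have hinj : Function.Injective (fun O : Finset GolayPt => h • O) := MulAction.injective h
  have hsub : 𝒪.image (fun O : Finset GolayPt => h • O) ⊆ 𝒪 := by
    intro x hx
    obtain ⟨O, hO, rfl⟩ := Finset.mem_image.1 hx
    exact hm O hO
  have heq : 𝒪.image (fun O : Finset GolayPt => h • O) = 𝒪 :=
    Finset.eq_of_subset_of_card_le hsub (by rw [Finset.card_image_of_injective _ hinj])
  rw [← heq] at hO'
  obtain ⟨O, hO, e⟩ := Finset.mem_image.1 hO'
  exact ⟨O, hO, e⟩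

/-- Preserving the octads puts a permutation in the group. -/
theorem mem_M24_of_octads {g : Equiv.Perm GolayPt} (h : ∀ O ∈ octads, g • O ∈ octads) : g ∈ M24 := by
  rw [Cfsg.Agent.S0369.result, MulAction.mem_stabilizer_iff]
  apply Set.eq_of_subset_of_ncard_le
  · rintro _ ⟨O, hO, rfl⟩
    exact h O hO
  · rw [Set.ncard_smul_set]
  · exact Set.toFinite _

/-- A permutation preserving the octads meeting a set through the first point. -/
theorem mem_M24_of_meet {S : Finset GolayPt} (hPS : pP ∈ S) {h : Equiv.Perm GolayPt}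
    (hS : h • S = S) (hm : ∀ O ∈ octads, (O ∩ S).Nonempty → h • O ∈ octads) : h ∈ M24 := by
  classical
  apply mem_M24_of_octads
  intro O hO
  by_cases hne : (O ∩ S).Nonempty
  · exact hm O hO hne
  · apply octad_of_chi _ (by rw [Finset.card_smul_finset]; exact octad_card hO)
    apply L1
    intro O' hO' hPO'
    let 𝒪 : Finset (Finset GolayPt) := octadFin.filter (fun O => (O ∩ S).Nonempty)
    have hmem : ∀ X, X ∈ 𝒪 ↔ X ∈ octads ∧ (X ∩ S).Nonempty := by
      intro X
      simp only [𝒪, Finset.mem_filter, mem_octadFin]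
    have hself : ∀ X ∈ 𝒪, h • X ∈ 𝒪 := by
      intro X hX
      obtain ⟨h1, h2⟩ := (hmem X).1 hX
      refine (hmem _).2 ⟨hm X h1 h2, ?_⟩
      obtain ⟨y, hy⟩ := h2
      obtain ⟨hy1, hy2⟩ := Finset.mem_inter.1 hy
      refine ⟨h • y, Finset.mem_inter.2 ⟨Finset.smul_mem_smul_finset hy1, ?_⟩⟩
      rw [← hS]
      exact Finset.smul_mem_smul_finset hy2
    have hO'm : O' ∈ 𝒪 := (hmem _).2 ⟨hO', ⟨pP, Finset.mem_inter.2 ⟨hPO', hPS⟩⟩⟩
    obtain ⟨O'', hO'', rfl⟩ := surj_of_selfmap hself hO'm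
    rw [← Finset.smul_finset_inter, Finset.card_smul_finset]
    exact octad_inter_even hO ((hmem _).1 hO'').1

/-- The case of one point. -/
theorem ext1 {g : Equiv.Perm GolayPt} (hP : g pP = pP)
    (h : ∀ O ∈ octads, pP ∈ O → g • O ∈ octads) : g ∈ M24 := by
  apply mem_M24_of_meet (S := {pP}) (Finset.mem_singleton_self _)
  · rw [Finset.smul_finset_singleton, Equiv.Perm.smul_def, hP]
  · intro O hO hne
    obtain ⟨y, hy⟩ := hne
    obtain ⟨hy1, hy2⟩ := Finset.mem_inter.1 hy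
    rw [Finset.mem_singleton] at hy2
    subst hy2
    exact h O hO hy1

/-- The transposition of the two base points. -/
def tauP : Equiv.Perm GolayPt := Equiv.swap pP pQ

theorem tau_P : tauP pP = pQ := Equiv.swap_apply_left _ _
theorem tau_Q : tauP pQ = pP := Equiv.swap_apply_right _ _
theorem tau_of {x : GolayPt} (h1 : x ≠ pP) (h2 : x ≠ pQ) : tauP x = x :=
  Equiv.swap_apply_of_ne_of_ne h1 h2

theorem pP_ne_pQ : pP ≠ pQ := by decide

/-- There is an octad through the first point avoiding the second. -/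
theorem exists_octad_PQ : ∃ O ∈ octads, pP ∈ O ∧ pQ ∉ O := by
  have h : (8414120 ∈ octadL ∧ Nat.testBit 8414120 23 = true) ∧ Nat.testBit 8414120 0 = false := by
    decide +kernel
  refine ⟨finOf 8414120, finOf_oct h.1.1, ?_, ?_⟩
  · rw [mem_finOf, bit_pP]; exact h.1.2
  · rw [mem_finOf, bit_pQ, h.2]; simp

/-- The transposition is not in the group. -/
theorem tau_not_M24 : tauP ∉ M24 := by
  intro ht
  obtain ⟨O, hO, hP, hQ⟩ := exists_octad_PQ
  have h1 := smul_octad ht hO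
  have hsub : O.erase pP ⊆ tauP • O ∩ O := by
    intro x hx
    obtain ⟨h2, h3⟩ := Finset.mem_erase.1 hx
    have hxQ : x ≠ pQ := fun e => hQ (e ▸ h3)
    refine Finset.mem_inter.2 ⟨?_, h3⟩
    rw [← tau_of h2 hxQ]
    exact Finset.smul_mem_smul_finset h3
  have hc : 5 ≤ (tauP • O ∩ O).card := by
    have := Finset.card_le_card hsub
    rw [Finset.card_erase_of_mem hP, octad_card hO] at this
    omega
  have e := octad_eq_of_card_inter h1 hO hc
  apply hQ
  rw [← e, ← tau_P]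
  exact Finset.smul_mem_smul_finset hP

theorem insert_inter_insert_card {X Y : Finset GolayPt} {a c : GolayPt} (ha : a ∉ X) (hc : c ∉ Y)
    (haY : a ∉ Y) (hcX : c ∉ X) :
    (insert a X ∩ insert c Y).card = (X ∩ Y).card + if a = c then 1 else 0 := by
  by_cases hac : a = c
  · subst hac
    rw [if_pos rfl, ← Finset.insert_inter_distrib, Finset.card_insert_of_notMem]
    simp [ha]
  · have e : insert a X ∩ insert c Y = X ∩ Y := by
      ext y
      simp only [Finset.mem_inter, Finset.mem_insert]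
      constructor
      · rintro ⟨rfl | h1, rfl | h2⟩
        · exact absurd rfl hac
        · exact absurd h2 haY
        · exact absurd h1 hcX
        · exact ⟨h1, h2⟩
      · rintro ⟨h1, h2⟩
        exact ⟨Or.inr h1, Or.inr h2⟩
    rw [e, if_neg hac, add_zero]

/-- The case of two points. -/
theorem ext2 {g : Equiv.Perm GolayPt} (hP : g pP = pP) (hQ : g pQ = pQ)
    (h : ∀ O ∈ octads, pP ∈ O → pQ ∈ O → g • O ∈ octads) : g ∈ M24 ∨ tauP * g ∈ M24 := by
  classical
  -- octads through both points are onto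
  let 𝒪 : Finset (Finset GolayPt) := octadFin.filter (fun O => pP ∈ O ∧ pQ ∈ O)
  have hmem : ∀ X, X ∈ 𝒪 ↔ X ∈ octads ∧ pP ∈ X ∧ pQ ∈ X := by
    intro X
    simp only [𝒪, Finset.mem_filter, mem_octadFin]
  have hself : ∀ X ∈ 𝒪, g • X ∈ 𝒪 := by
    intro X hX
    obtain ⟨h1, h2, h3⟩ := (hmem X).1 hX
    refine (hmem _).2 ⟨h X h1 h2 h3, ?_, ?_⟩
    · rw [← hP]; exact Finset.smul_mem_smul_finset h2
    · rw [← hQ]; exact Finset.smul_mem_smul_finset h3
  have hsurj : ∀ O' ∈ octads, pP ∈ O' → pQ ∈ O' → ∃ O'' ∈ octads, pP ∈ O'' ∧ pQ ∈ O'' ∧ g • O'' = O' := by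
    intro O' h1 h2 h3
    obtain ⟨O'', h4, h5⟩ := surj_of_selfmap hself ((hmem O').2 ⟨h1, h2, h3⟩)
    obtain ⟨h6, h7, h8⟩ := (hmem O'').1 h4
    exact ⟨O'', h6, h7, h8, h5⟩
  have gmem : ∀ {y : GolayPt} {X : Finset GolayPt}, g y ∈ g • X ↔ y ∈ X := by
    intro y X
    rw [← Equiv.Perm.smul_def, Finset.smul_mem_smul_finset_iff]
  -- octads through exactly one point
  let Ex : Finset GolayPt → GolayPt → GolayPt → Finset GolayPt → Prop := fun O a b X =>
    ((a = pP ∧ b = pQ) ∨ (a = pQ ∧ b = pP)) ∧ O = insert a X ∧ pP ∉ X ∧ pQ ∉ X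
  have hEx : ∀ O : Finset GolayPt, (pP ∈ O ∧ pQ ∉ O) ∨ (pQ ∈ O ∧ pP ∉ O) → ∃ a b X, Ex O a b X := by
    rintro O (⟨h1, h2⟩ | ⟨h1, h2⟩)
    · refine ⟨pP, pQ, O.erase pP, Or.inl ⟨rfl, rfl⟩, (Finset.insert_erase h1).symm, ?_, ?_⟩
      · exact Finset.notMem_erase _ _
      · exact fun h3 => h2 (Finset.mem_of_mem_erase h3)
    · refine ⟨pQ, pP, O.erase pQ, Or.inr ⟨rfl, rfl⟩, (Finset.insert_erase h1).symm, ?_, ?_⟩
      · exact fun h3 => h2 (Finset.mem_of_mem_erase h3)
      · exact Finset.notMem_erase _ _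
  -- images under the permutation
  have hgX : ∀ {a b : GolayPt} {O X : Finset GolayPt}, Ex O a b X → g • O = insert a (g • X) := by
    rintro a b O X ⟨hab, rfl, -, -⟩
    rw [Finset.smul_finset_insert, Equiv.Perm.smul_def]
    rcases hab with ⟨rfl, -⟩ | ⟨rfl, -⟩
    · rw [hP]
    · rw [hQ]
  have hXa : ∀ {X : Finset GolayPt}, pP ∉ X → pP ∉ g • X := fun h1 h2 => h1 (gmem.1 (by rw [hP]; exact h2))
  have hXb : ∀ {X : Finset GolayPt}, pQ ∉ X → pQ ∉ g • X := fun h1 h2 => h1 (gmem.1 (by rw [hQ]; exact h2))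
  have htauX : ∀ {X : Finset GolayPt}, pP ∉ X → pQ ∉ X → tauP • X = X := by
    intro X h1 h2
    apply smul_eq_of_maps _ rfl
    intro x hx
    rw [tau_of (fun e => h1 (e ▸ hx)) (fun e => h2 (e ▸ hx))]
    exact hx
  have htau_a : ∀ {a b : GolayPt}, ((a = pP ∧ b = pQ) ∨ (a = pQ ∧ b = pP)) → tauP a = b := by
    rintro a b (⟨rfl, rfl⟩ | ⟨rfl, rfl⟩)
    · exact tau_P
    · exact tau_Q
  have htgX : ∀ {a b : GolayPt} {O X : Finset GolayPt}, Ex O a b X → tauP • (g • O) = insert b (g • X) := by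
    intro a b O X hE
    rw [hgX hE, Finset.smul_finset_insert, Equiv.Perm.smul_def, htau_a hE.1, htauX (hXa hE.2.2.1) (hXb hE.2.2.2)]
  have hcardX : ∀ {a b : GolayPt} {O X : Finset GolayPt}, O ∈ octads → Ex O a b X → X.card = 7 := by
    rintro a b O X hO ⟨hab, rfl, h1, h2⟩
    have h3 : a ∉ X := by
      rcases hab with ⟨rfl, -⟩ | ⟨rfl, -⟩
      · exact h1
      · exact h2
    have := octad_card hO
    rw [Finset.card_insert_of_notMem h3] at this
    omega
  have hxa : ∀ {a b : GolayPt} {X : Finset GolayPt}, Ex (insert a X) a b X → a ∉ X := by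
    rintro a b X ⟨hab, -, h1, h2⟩
    rcases hab with ⟨rfl, -⟩ | ⟨rfl, -⟩
    · exact h1
    · exact h2
  -- the dichotomy for one octad
  have hdich : ∀ {a b : GolayPt} {O X : Finset GolayPt}, O ∈ octads → Ex O a b X →
      g • O ∈ octads ∨ tauP • (g • O) ∈ octads := by
    intro a b O X hO hE
    have hc7 := hcardX hO hE
    have hodd : ∀ O' ∈ octads, pP ∈ O' → pQ ∈ O' → Odd (g • X ∩ O').card := by
      intro O' h1 h2 h3
      obtain ⟨O'', h4, h5, h6, rfl⟩ := hsurj O' h1 h2 h3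
      rw [← Finset.smul_finset_inter, Finset.card_smul_finset]
      have h7 := octad_inter_even hO h4
      have haO'' : a ∈ O'' := by
        rcases hE.1 with ⟨rfl, -⟩ | ⟨rfl, -⟩
        · exact h5
        · exact h6
      have haX : a ∉ X := by
        rcases hE.1 with ⟨rfl, -⟩ | ⟨rfl, -⟩
        · exact hE.2.2.1
        · exact hE.2.2.2
      rw [hE.2.1, Finset.insert_inter_of_mem haO'', Finset.card_insert_of_notMem
        (fun h8 => haX (Finset.mem_of_mem_inter_left h8))] at h7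
      rw [Nat.even_add_one] at h7
      exact Nat.not_even_iff_odd.1 h7
    have hoct : ∀ c, c ∉ g • X → chi (insert c (g • X)) ∈ golayCode → insert c (g • X) ∈ octads := by
      intro c hc hw
      apply octad_of_chi hw
      rw [Finset.card_insert_of_notMem hc, Finset.card_smul_finset, hc7]
    have hP' := hXa hE.2.2.1
    have hQ' := hXb hE.2.2.2
    have h1 := hgX hE
    have h2 := htgX hE
    rcases hE.1 with ⟨rfl, rfl⟩ | ⟨rfl, rfl⟩
    · rcases L2 hP' hQ' hodd with h3 | h3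
      · left; rw [h1]; exact hoct _ hP' h3
      · right; rw [h2]; exact hoct _ hQ' h3
    · rcases L2 hP' hQ' hodd with h3 | h3
      · right; rw [h2]; exact hoct _ hP' h3
      · left; rw [h1]; exact hoct _ hQ' h3
  -- no mixing
  have hmix : ∀ {a b c d : GolayPt} {O1 O2 X1 X2 : Finset GolayPt}, O1 ∈ octads → O2 ∈ octads →
      Ex O1 a b X1 → Ex O2 c d X2 → g • O1 ∈ octads → tauP • (g • O2) ∈ octads → False := by
    intro a b c d O1 O2 X1 X2 h1 h2 hE1 hE2 h3 h4
    have h5 := octad_inter_even h1 h2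
    have h6 := octad_inter_even h3 h4
    rw [htgX hE2, hgX hE1] at h6
    rw [hE1.2.1, hE2.2.1] at h5
    have hinter : (g • X1 ∩ g • X2).card = (X1 ∩ X2).card := by
      rw [← Finset.smul_finset_inter, Finset.card_smul_finset]
    obtain ⟨hab, -, h11, h12⟩ := hE1
    obtain ⟨hcd, -, h21, h22⟩ := hE2
    have g11 := hXa h11
    have g12 := hXb h12
    have g21 := hXa h21
    have g22 := hXb h22
    rcases hab with ⟨rfl, rfl⟩ | ⟨rfl, rfl⟩ <;> rcases hcd with ⟨rfl, rfl⟩ | ⟨rfl, rfl⟩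
    · rw [insert_inter_insert_card h11 h21 h21 h11, if_pos rfl] at h5
      rw [insert_inter_insert_card g11 g22 g21 g12, if_neg pP_ne_pQ, add_zero, hinter] at h6
      rw [Nat.even_add_one] at h5
      exact h5 h6
    · rw [insert_inter_insert_card h11 h22 h21 h12, if_neg pP_ne_pQ, add_zero] at h5
      rw [insert_inter_insert_card g11 g21 g21 g11, if_pos rfl, hinter] at h6
      rw [Nat.even_add_one] at h6
      exact h6 h5
    · rw [insert_inter_insert_card h12 h21 h22 h11, if_neg pP_ne_pQ.symm, add_zero] at h5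
      rw [insert_inter_insert_card g12 g22 g22 g12, if_pos rfl, hinter] at h6
      rw [Nat.even_add_one] at h6
      exact h6 h5
    · rw [insert_inter_insert_card h12 h22 h22 h12, if_pos rfl] at h5
      rw [insert_inter_insert_card g12 g21 g22 g11, if_neg pP_ne_pQ.symm, add_zero, hinter] at h6
      rw [Nat.even_add_one] at h5
      exact h5 h6
  have hS2 : pP ∈ S2 := by decide
  have hinS2 : ∀ {x : GolayPt}, x ∈ S2 ↔ x = pP ∨ x = pQ := by
    intro x
    simp [S2]
  -- a set through both points is fixed by the transposition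
  have htauO : ∀ {Y : Finset GolayPt}, pP ∈ Y → pQ ∈ Y → tauP • Y = Y := by
    intro Y h1 h2
    apply smul_eq_of_maps _ rfl
    intro x hx
    by_cases h3 : x = pP
    · subst h3; rw [tau_P]; exact h2
    · by_cases h4 : x = pQ
      · subst h4; rw [tau_Q]; exact h1
      · rw [tau_of h3 h4]; exact hx
  have hgO : ∀ {O : Finset GolayPt}, pP ∈ O → pQ ∈ O → pP ∈ g • O ∧ pQ ∈ g • O := by
    intro O h1 h2
    constructor
    · rw [← hP]; exact gmem.2 h1
    · rw [← hQ]; exact gmem.2 h2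
  have hmeet : ∀ {O : Finset GolayPt}, (O ∩ S2).Nonempty → (pP ∈ O ∧ pQ ∈ O) ∨ (pP ∈ O ∧ pQ ∉ O) ∨ (pQ ∈ O ∧ pP ∉ O) := by
    rintro O ⟨y, hy⟩
    obtain ⟨h1, h2⟩ := Finset.mem_inter.1 hy
    rcases hinS2.1 h2 with e | e
    · rw [e] at h1
      by_cases h3 : pQ ∈ O
      · exact Or.inl ⟨h1, h3⟩
      · exact Or.inr (Or.inl ⟨h1, h3⟩)
    · rw [e] at h1
      by_cases h3 : pP ∈ O
      · exact Or.inl ⟨h3, h1⟩
      · exact Or.inr (Or.inr ⟨h1, h3⟩)
  let ι := {O : Finset GolayPt // O ∈ octads ∧ ((pP ∈ O ∧ pQ ∉ O) ∨ (pQ ∈ O ∧ pP ∉ O))}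
  have hcl : ∀ i : ι, g • i.1 ∈ octads ∨ tauP • (g • i.1) ∈ octads := by
    rintro ⟨O, hO, hm⟩
    obtain ⟨a, b, X, hE⟩ := hEx O hm
    exact hdich hO hE
  have h12 : ∀ i j : ι, g • i.1 ∈ octads → tauP • (g • j.1) ∈ octads → False := by
    rintro ⟨O1, h1, h2⟩ ⟨O2, h3, h4⟩ h5 h6
    obtain ⟨a, b, X1, hE1⟩ := hEx O1 h2
    obtain ⟨c, d, X2, hE2⟩ := hEx O2 h4
    exact hmix h1 h3 hE1 hE2 h5 h6
  rcases select2 hcl h12 with hA | hA
  · left
    apply mem_M24_of_meet hS2
    · apply smul_eq_of_maps _ rfl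
      intro x hx
      rcases hinS2.1 hx with rfl | rfl
      · rw [hP]; exact hx
      · rw [hQ]; exact hx
    · intro O hO hne
      rcases hmeet hne with h1 | h1 | h1
      · exact h O hO h1.1 h1.2
      · exact hA ⟨O, hO, Or.inl h1⟩
      · exact hA ⟨O, hO, Or.inr h1⟩
  · right
    apply mem_M24_of_meet hS2
    · apply smul_eq_of_maps _ rfl
      intro x hx
      rw [Equiv.Perm.mul_apply]
      rcases hinS2.1 hx with rfl | rfl
      · rw [hP, tau_P]; exact hinS2.2 (Or.inr rfl)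
      · rw [hQ, tau_Q]; exact hinS2.2 (Or.inl rfl)
    · intro O hO hne
      rw [mul_smul]
      rcases hmeet hne with h1 | h1 | h1
      · have h2 := hgO h1.1 h1.2
        rw [htauO h2.1 h2.2]
        exact h O hO h1.1 h1.2
      · exact hA ⟨O, hO, Or.inl h1⟩
      · exact hA ⟨O, hO, Or.inr h1⟩

end Cfsg.Agent.Lib.SteinerU
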