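/-
Automorphisms of a design and permutations of the points of the code.
-/
import Cfsg.Agent.Lib.SteinerU.Ext
import Cfsg.Agent.Lib.Golay.Simple

set_option autoImplicit false

universe u

namespace Cfsg.Agent.Lib.SteinerU

open Cfsg Cfsg.Agent.Lib.Golay Cfsg.Agent.Lib.M24 MulAction
open scoped Pointwise

variable {α : Type u} [Fintype α] [DecidableEq α] {S : Finset GolayPt} {B : Set (Finset α)}
  {j : α → GolayPt}

theorem mem_aut_iff_forall {σ : Equiv.Perm α} : σ ∈ setSystemAut B ↔ ∀ b ∈ B, σ • b ∈ B := by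
  constructor
  · intro h b hb
    rw [mem_stabilizer_iff] at h
    rw [← h]
    exact Set.smul_mem_smul_set hb
  · intro h
    rw [mem_stabilizer_iff]
    apply Set.eq_of_subset_of_ncard_le
    · rintro _ ⟨b, hb, rfl⟩
      exact h b hb
    · rw [Set.ncard_smul_set]
    · exact Set.toFinite _

theorem smul_mem_of_aut {σ : Equiv.Perm α} (h : σ ∈ setSystemAut B) {b : Finset α} (hb : b ∈ B) :
    σ • b ∈ B := mem_aut_iff_forall.1 h b hb

/-- The map to the complement. -/
noncomputable def Emb.toEquiv (h : Emb S B j) : α ≃ {x : GolayPt // x ∉ S} :=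
  Equiv.ofBijective (fun x => ⟨j x, h.avoid x⟩)
    ⟨fun a b e => h.inj (congrArg Subtype.val e), fun y => by
      obtain ⟨x, hx⟩ := h.cover y.1 y.2
      exact ⟨x, Subtype.ext hx⟩⟩

theorem Emb.toEquiv_apply (h : Emb S B j) (x : α) : h.toEquiv x = ⟨j x, h.avoid x⟩ := rfl

/-- Extending a permutation of the design by the identity on the fixed set. -/
noncomputable def Emb.phi (h : Emb S B j) : Equiv.Perm α →* Equiv.Perm GolayPt :=
  Equiv.Perm.extendDomainHom h.toEquiv

theorem Emb.phi_inj (h : Emb S B j) : Function.Injective h.phi :=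
  Equiv.Perm.extendDomainHom_injective _

theorem Emb.phi_j (h : Emb S B j) (σ : Equiv.Perm α) (x : α) : h.phi σ (j x) = j (σ x) := by
  have := Equiv.Perm.extendDomain_apply_image σ h.toEquiv x
  show (σ.extendDomain h.toEquiv) (j x) = j (σ x)
  simpa [Emb.toEquiv_apply] using this

theorem Emb.phi_S (h : Emb S B j) (σ : Equiv.Perm α) {y : GolayPt} (hy : y ∈ S) : h.phi σ y = y :=
  Equiv.Perm.extendDomain_apply_not_subtype σ h.toEquiv (by simpa using hy)

theorem Emb.phi_smul_S (h : Emb S B j) (σ : Equiv.Perm α) : h.phi σ • S = S := by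
  apply smul_eq_of_maps _ rfl
  intro x hx
  rw [h.phi_S σ hx]
  exact hx

theorem Emb.phi_smul_image (h : Emb S B j) (σ : Equiv.Perm α) (b : Finset α) :
    h.phi σ • b.image j = (σ • b).image j := by
  rw [Finset.smul_finset_def, Finset.smul_finset_def, Finset.image_image, Finset.image_image]
  apply Finset.image_congr
  intro x _
  exact h.phi_j σ x

theorem Emb.phi_smul (h : Emb S B j) (σ : Equiv.Perm α) (b : Finset α) :
    h.phi σ • (b.image j ∪ S) = (σ • b).image j ∪ S := by
  rw [Finset.smul_finset_union, h.phi_smul_image, h.phi_smul_S]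

/-- The image of the extension is the fixer of the fixed set. -/
theorem Emb.phi_surj (h : Emb S B j) {g : Equiv.Perm GolayPt} (hg : ∀ y ∈ S, g y = y) :
    ∃ σ, h.phi σ = g := by
  have h1 : ∀ x, g (j x) ∉ S := by
    intro x hx
    have := hg _ hx
    exact h.avoid x (by rw [← g.injective this]; exact hx)
  have h2 : ∀ x, g⁻¹ (j x) ∉ S := by
    intro x hx
    have h3 := hg _ hx
    have h4 : g (g⁻¹ (j x)) = j x := by simp
    rw [h4] at h3
    exact h.avoid x (by rw [h3]; exact hx)
  choose f hf using fun x => h.cover _ (h1 x)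
  have hinj : Function.Injective f := by
    intro a b e
    apply h.inj
    apply g.injective
    rw [← hf, ← hf, e]
  have hsur : Function.Surjective f := by
    intro y
    obtain ⟨x, hx⟩ := h.cover _ (h2 y)
    refine ⟨x, h.inj ?_⟩
    rw [hf, hx]
    simp
  refine ⟨Equiv.ofBijective f ⟨hinj, hsur⟩, Equiv.ext fun y => ?_⟩
  by_cases hy : y ∈ S
  · rw [h.phi_S _ hy, hg y hy]
  · obtain ⟨x, rfl⟩ := h.cover y hy
    rw [h.phi_j]
    exact hf x

/-- Automorphisms of the design, through the octads. -/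
theorem Emb.aut_iff (h : Emb S B j) {t k : ℕ} (hB : IsSteinerSystem t k B) (ht : S.card + t = 5)
    (σ : Equiv.Perm α) : σ ∈ setSystemAut B ↔ ∀ O ∈ octads, S ⊆ O → h.phi σ • O ∈ octads := by
  constructor
  · intro hσ O hO hS
    obtain ⟨b, hb, rfl⟩ := h.surj hB ht hO hS
    rw [h.phi_smul]
    exact h.blocks _ (smul_mem_of_aut hσ hb)
  · intro hσ
    rw [mem_aut_iff_forall]
    intro b hb
    rw [h.mem_iff hB ht, ← h.phi_smul]
    exact hσ _ (h.blocks b hb) Finset.subset_union_right

theorem Emb.aut_of_M24 (h : Emb S B j) {t k : ℕ} (hB : IsSteinerSystem t k B) (ht : S.card + t = 5)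
    {σ : Equiv.Perm α} (hσ : h.phi σ ∈ M24) : σ ∈ setSystemAut B :=
  (h.aut_iff hB ht σ).2 fun _ hO _ => smul_octad hσ hO

/-- The group of the code fixing the fixed set acts on the design. -/
theorem Emb.exists_aut (h : Emb S B j) {t k : ℕ} (hB : IsSteinerSystem t k B) (ht : S.card + t = 5)
    {g : Equiv.Perm GolayPt} (hg : g ∈ M24) (hS : ∀ y ∈ S, g y = y) :
    ∃ σ ∈ setSystemAut B, h.phi σ = g := by
  obtain ⟨σ, rfl⟩ := h.phi_surj hS
  exact ⟨σ, h.aut_of_M24 hB ht hg, rfl⟩

/-- Multiple transitivity, through the group of the code. -/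
theorem Emb.multi_trans (h : Emb S B j) {t k : ℕ} (hB : IsSteinerSystem t k B)
    (ht : S.card + t = 5) {n : ℕ} (hn : n + S.card ≤ 5) :
    MulAction.IsMultiplyPretransitive (setSystemAut B) α n := by
  classical
  constructor
  intro x y
  let u : Finset GolayPt := S ∪ Finset.univ.image (fun i => j (x i))
  have hu : u.card ≤ 5 := by
    show (S ∪ _).card ≤ 5
    have h1 := Finset.card_union_le S (Finset.univ.image (fun i => j (x i)))
    have h2 : (Finset.univ.image (fun i => j (x i))).card ≤ n := by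
      have := Finset.card_image_le (s := (Finset.univ : Finset (Fin n))) (f := fun i => j (x i))
      simpa using this
    omega
  let f : GolayPt → GolayPt := fun z => if hz : ∃ i, j (x i) = z then j (y hz.choose) else z
  have hf1 : ∀ i, f (j (x i)) = j (y i) := by
    intro i
    have hz : ∃ i', j (x i') = j (x i) := ⟨i, rfl⟩
    have h3 : hz.choose = i := x.injective (h.inj hz.choose_spec)
    simp only [f, dif_pos hz, h3]
  have hf2 : ∀ z ∈ S, f z = z := by
    intro z hz
    have h3 : ¬ ∃ i, j (x i) = z := by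
      rintro ⟨i, rfl⟩
      exact h.avoid _ hz
    simp only [f, dif_neg h3]
  have hinj : Set.InjOn f (u : Set GolayPt) := by
    intro a ha b hb hab
    have ha' := Finset.mem_coe.1 ha
    have hb' := Finset.mem_coe.1 hb
    simp only [u, Finset.mem_union, Finset.mem_image, Finset.mem_univ, true_and] at ha' hb'
    rcases ha' with ha' | ⟨i, rfl⟩ <;> rcases hb' with hb' | ⟨i', rfl⟩
    · rwa [hf2 _ ha', hf2 _ hb'] at hab
    · rw [hf2 _ ha', hf1] at hab
      exact absurd (hab ▸ ha') (h.avoid _)
    · rw [hf2 _ hb', hf1] at hab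
      exact absurd (hab ▸ hb') (h.avoid _)
    · rw [hf1, hf1] at hab
      rw [y.injective (h.inj hab)]
  obtain ⟨g, hg, hgf⟩ := exists_map_on hu f hinj
  obtain ⟨σ, hσ, rfl⟩ := h.exists_aut hB ht hg (fun z hz => by
    rw [hgf z (Finset.mem_union_left _ hz), hf2 z hz])
  refine ⟨⟨σ, hσ⟩, ?_⟩
  ext i
  show σ (x i) = y i
  apply h.inj
  rw [← h.phi_j, hgf _ (Finset.mem_union_right _ (Finset.mem_image_of_mem _ (Finset.mem_univ i))), hf1]

/-- A subgroup with range a given subgroup is isomorphic to it. -/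
noncomputable def equivOfRange {G : Type*} [Group G] {M : Subgroup (Equiv.Perm GolayPt)}
    (f : G →* Equiv.Perm GolayPt) (hf : Function.Injective f) (hr : f.range = M) : G ≃* M :=
  (MonoidHom.ofInjective hf).trans (MulEquiv.subgroupCongr hr)

/-- The restriction of the extension to the automorphisms. -/
noncomputable def Emb.phiA (h : Emb S B j) : ↥(setSystemAut B) →* Equiv.Perm GolayPt :=
  h.phi.comp (setSystemAut B).subtype

theorem Emb.phiA_inj (h : Emb S B j) : Function.Injective h.phiA :=
  h.phi_inj.comp Subtype.val_injective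

/-- The case of no fixed points. -/
theorem range_24 (h : Emb ∅ B j) (hB : IsSteinerSystem 5 8 B) : h.phiA.range = M24 := by
  ext g
  constructor
  · rintro ⟨σ, rfl⟩
    apply mem_M24_of_octads
    intro O hO
    exact (h.aut_iff hB (by rfl) σ.1).1 σ.2 O hO (Finset.empty_subset _)
  · intro hg
    obtain ⟨σ, hσ, rfl⟩ := h.exists_aut hB (by rfl) hg (by simp)
    exact ⟨⟨σ, hσ⟩, rfl⟩

/-- The case of one fixed point. -/
theorem range_23 (h : Emb S1 B j) (hB : IsSteinerSystem 4 7 B) : h.phiA.range = H23 := by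
  have hS : pP ∈ S1 := by decide
  ext g
  constructor
  · rintro ⟨σ, rfl⟩
    refine mem_stabL.2 ⟨?_, ?_⟩
    · apply ext1 (h.phi_S σ.1 hS)
      intro O hO hP
      refine (h.aut_iff hB (by rw [S1_card]) σ.1).1 σ.2 O hO ?_
      intro y hy
      rw [S1, Finset.mem_singleton] at hy
      subst hy
      exact hP
    · intro b hb
      rw [List.mem_singleton] at hb
      subst hb
      exact h.phi_S σ.1 hS
  · intro hg
    obtain ⟨hg1, hg2⟩ := mem_stabL.1 hg
    obtain ⟨σ, hσ, rfl⟩ := h.exists_aut hB (by rw [S1_card]) hg1 (by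
      intro y hy
      rw [S1, Finset.mem_singleton] at hy
      subst hy
      exact hg2 23 (by simp))
    exact ⟨⟨σ, hσ⟩, rfl⟩

end Cfsg.Agent.Lib.SteinerU
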