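/-
The system on eleven points: soundness of the search.
-/
import Cfsg.Agent.Lib.SteinerU.S11Data
import Cfsg.Prelude.Def_Sporadic_a

set_option autoImplicit false
set_option maxRecDepth 100000

universe u v w

namespace Cfsg.Agent.Lib.SteinerU

open Cfsg

section generic

variable {α : Type u} {β : Type v} {γ : Type w} [DecidableEq α] [DecidableEq β] [DecidableEq γ]

/-- The image of a family. -/
def mapE (e : α ≃ β) (B : Set (Finset α)) : Set (Finset β) := (fun b => b.image e) '' B

theorem iso_mapE (e : α ≃ β) (B : Set (Finset α)) : SetSystemIso B (mapE e B) := ⟨e, rfl⟩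

theorem mem_mapE {e : α ≃ β} {B : Set (Finset α)} {b : Finset β} :
    b ∈ mapE e B ↔ b.image e.symm ∈ B := by
  constructor
  · rintro ⟨c, hc, rfl⟩
    simpa [Finset.image_image] using hc
  · intro h
    exact ⟨_, h, by simp [Finset.image_image]⟩

theorem iso_symm {B : Set (Finset α)} {B' : Set (Finset β)} (h : SetSystemIso B B') :
    SetSystemIso B' B := by
  obtain ⟨e, rfl⟩ := h
  refine ⟨e.symm, ?_⟩
  ext c
  constructor
  · rintro ⟨_, ⟨b, hb, rfl⟩, rfl⟩
    simpa [Finset.image_image] using hb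
  · intro hc
    exact ⟨_, ⟨c, hc, rfl⟩, by simp [Finset.image_image]⟩

theorem iso_trans {B : Set (Finset α)} {B' : Set (Finset β)} {B'' : Set (Finset γ)}
    (h : SetSystemIso B B') (h' : SetSystemIso B' B'') : SetSystemIso B B'' := by
  obtain ⟨e, rfl⟩ := h
  obtain ⟨f, rfl⟩ := h'
  refine ⟨e.trans f, ?_⟩
  ext c
  constructor
  · rintro ⟨b, hb, rfl⟩
    exact ⟨_, ⟨b, hb, rfl⟩, by simp [Finset.image_image]⟩
  · rintro ⟨_, ⟨b, hb, rfl⟩, rfl⟩
    exact ⟨b, hb, by simp [Finset.image_image]⟩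

theorem steiner_mapE {t k : ℕ} (e : α ≃ β) {B : Set (Finset α)} (hB : IsSteinerSystem t k B) :
    IsSteinerSystem t k (mapE e B) := by
  constructor
  · rintro _ ⟨b, hb, rfl⟩
    rw [Finset.card_image_of_injective _ e.injective]
    exact hB.1 b hb
  · intro s hs
    have hc : (s.image e.symm).card = t := by
      rw [Finset.card_image_of_injective _ e.symm.injective, hs]
    obtain ⟨b, ⟨hb, hsb⟩, huq⟩ := hB.2 _ hc
    have h1 : s ⊆ b.image e := by
      intro x hx
      refine Finset.mem_image.2 ⟨e.symm x, hsb (Finset.mem_image_of_mem _ hx), by simp⟩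
    refine ⟨b.image e, ⟨⟨b, hb, rfl⟩, h1⟩, ?_⟩
    rintro _ ⟨⟨c, hc1, rfl⟩, hc2⟩
    have : c = b := by
      apply huq
      refine ⟨hc1, ?_⟩
      intro x hx
      obtain ⟨y, hy, rfl⟩ := Finset.mem_image.1 hx
      obtain ⟨z, hz, rfl⟩ := Finset.mem_image.1 (hc2 hy)
      simpa using hz
    rw [this]

/-- Two blocks sharing a `t`-set are equal. -/
theorem two_blocks_eq {t k : ℕ} {B : Set (Finset α)} (hB : IsSteinerSystem t k B) {b c : Finset α}
    (hb : b ∈ B) (hc : c ∈ B) (h : t ≤ (b ∩ c).card) : b = c := by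
  obtain ⟨T, hT, hTc⟩ := Finset.exists_subset_card_eq h
  obtain ⟨d, -, huq⟩ := hB.2 T hTc
  rw [huq b ⟨hb, hT.trans Finset.inter_subset_left⟩, huq c ⟨hc, hT.trans Finset.inter_subset_right⟩]

/-- A design contained in another is equal to it. -/
theorem eq_of_subset {t k : ℕ} [Fintype α] {B B' : Set (Finset α)} (hB : IsSteinerSystem t k B)
    (hB' : IsSteinerSystem t k B') (hk : t ≤ k) (h : B ⊆ B') : B = B' := by
  apply Set.Subset.antisymm h
  intro b hb
  obtain ⟨T, hT, hTc⟩ := Finset.exists_subset_card_eq (s := b) (n := t) (by rw [hB'.1 b hb]; exact hk)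
  obtain ⟨c, ⟨hc, hTb⟩, -⟩ := hB.2 T hTc
  have := two_blocks_eq hB' hb (h hc) (by
    rw [← hTc]
    exact Finset.card_le_card (Finset.subset_inter hT hTb))
  rwa [this]

end generic

namespace S11

/-- The set of a mask. -/
def ofM (m : ℕ) : Finset (Fin 11) := Finset.univ.filter fun i => m.testBit i = true

theorem mem_ofM {m : ℕ} {i : Fin 11} : i ∈ ofM m ↔ m.testBit i = true := by simp [ofM]

theorem ofM_or_pow (T x : ℕ) (hx : x < 11) : ofM (T ||| 2 ^ x) = insert (⟨x, hx⟩ : Fin 11) (ofM T) := by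
  ext i
  simp only [mem_ofM, Nat.testBit_or, Nat.testBit_two_pow, Finset.mem_insert, Bool.or_eq_true,
    decide_eq_true_eq, Fin.ext_iff]
  constructor
  · rintro (h | h)
    · exact Or.inr h
    · exact Or.inl h.symm
  · rintro (h | h)
    · exact Or.inr h.symm
    · exact Or.inl h

theorem ofM_and (a b : ℕ) : ofM (a &&& b) = ofM a ∩ ofM b := by
  ext i
  simp only [mem_ofM, Nat.testBit_and, Finset.mem_inter, Bool.and_eq_true]

theorem exists_mask (s : Finset (Fin 11)) : ∃ m, m < 2 ^ 11 ∧ ofM m = s := by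
  induction s using Finset.induction_on with
  | empty => exact ⟨0, by norm_num, by ext i; simp [mem_ofM]⟩
  | insert a s _ ih =>
    obtain ⟨m, hm, rfl⟩ := ih
    refine ⟨m ||| 2 ^ (a : ℕ), Nat.or_lt_two_pow hm (Nat.pow_lt_pow_right (by norm_num) a.2), ?_⟩
    rw [ofM_or_pow _ _ a.2]

theorem ofM_inj {a b : ℕ} (ha : a < 2 ^ 11) (hb : b < 2 ^ 11) (h : ofM a = ofM b) : a = b := by
  apply Nat.eq_of_testBit_eq
  intro i
  by_cases hi : i < 11
  · have := Finset.ext_iff.1 h ⟨i, hi⟩
    simp only [mem_ofM] at this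
    cases h1 : a.testBit i <;> cases h2 : b.testBit i <;> simp_all
  · have h3 : (2 : ℕ) ^ 11 ≤ 2 ^ i := Nat.pow_le_pow_right (by norm_num) (by omega)
    rw [Nat.testBit_lt_two_pow (lt_of_lt_of_le ha h3), Nat.testBit_lt_two_pow (lt_of_lt_of_le hb h3)]

theorem card_ofM_pop : ∀ m < 2 ^ 11, (ofM m).card = pop m := by decide +kernel

theorem testBit_ofPts (l : List ℕ) (u : ℕ) : (ofPts l).testBit u = true ↔ u ∈ l := by
  induction l with
  | nil => simp [ofPts]
  | cons a l ih =>
    have : ofPts (a :: l) = 2 ^ a ||| ofPts l := rfl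
    rw [this, Nat.testBit_or, Bool.or_eq_true, ih, Nat.testBit_two_pow, decide_eq_true_eq,
      List.mem_cons, eq_comm]

theorem nbrs_ok : (List.range (2 ^ 11)).all (fun m => !(Nat.beq (pop m) 5) || (nbrs m).all fun u =>
    decide (u < 2 ^ 11) && !(Nat.beq u m) && decide (4 ≤ pop (u &&& m))) = true := by decide +kernel

theorem nbrs_spec {m u : ℕ} (hm : m < 2 ^ 11) (hc : (ofM m).card = 5) (hu : u ∈ nbrs m) :
    u < 2 ^ 11 ∧ u ≠ m ∧ 4 ≤ (ofM u ∩ ofM m).card := by
  have h1 := List.all_eq_true.1 nbrs_ok m (List.mem_range.2 hm)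
  rw [card_ofM_pop m hm] at hc
  have h0 : Nat.beq (pop m) 5 = true := by rw [hc]; rfl
  rw [h0, Bool.not_true, Bool.false_or] at h1
  have h2 := List.all_eq_true.1 h1 u hu
  simp only [Bool.and_eq_true, decide_eq_true_eq, Bool.not_eq_true'] at h2
  obtain ⟨⟨h3, h4⟩, h5⟩ := h2
  refine ⟨h3, ?_, ?_⟩
  · rintro rfl
    simp at h4
  · rw [← ofM_and, card_ofM_pop _ (Nat.and_lt_two_pow _ hm)]
    exact h5

/-- The state of the search is contained in the design. -/
def Good (B : Set (Finset (Fin 11))) (blk : ℕ) : Prop := ∀ m, blk.testBit m = true → ofM m ∈ B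

theorem exists_bit_of_land_ne {a b : ℕ} (h : Nat.land a b ≠ 0) :
    ∃ u, a.testBit u = true ∧ b.testBit u = true := by
  by_contra hc
  push Not at hc
  apply h
  apply Nat.eq_of_testBit_eq
  intro i
  have : Nat.land a b = a &&& b := rfl
  rw [this, Nat.testBit_and, Nat.zero_testBit]
  cases h1 : a.testBit i
  · simp
  · have := hc i h1
    simp [this]

theorem dfs_sound {B : Set (Finset (Fin 11))} (hB : IsSteinerSystem 4 5 B) (leaf : ℕ → Bool) :
    ∀ (Ts : List ℕ), (∀ T ∈ Ts, T < 2 ^ 11 ∧ (ofM T).card = 4) → ∀ blk, Good B blk →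
      dfs leaf Ts blk = true → ∃ blk', Good B blk' ∧ leaf blk' = true := by
  intro Ts
  induction Ts with
  | nil =>
    intro _ blk hg h
    exact ⟨blk, hg, h⟩
  | cons T Ts ih =>
    intro hT blk hg h
    have hTs := fun T' hT' => hT T' (List.mem_cons_of_mem _ hT')
    obtain ⟨hT1, hT2⟩ := hT T List.mem_cons_self
    have e : dfs leaf (T :: Ts) blk = cond (covB T blk) (dfs leaf Ts blk)
      (pts.all fun x => T.testBit x || !(Nat.beq (Nat.land blk (nbF (T ||| 2 ^ x))) 0) ||
        force (Nat.lor blk (2 ^ (T ||| 2 ^ x))) fun b => dfs leaf Ts b) := rfl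
    rw [e] at h
    cases hc : covB T blk with
    | true =>
      rw [hc] at h
      exact ih hTs blk hg h
    | false =>
      rw [hc] at h
      simp only [cond_false] at h
      -- the block through the four-set
      obtain ⟨b, ⟨hb, hTb⟩, -⟩ := hB.2 (ofM T) hT2
      have hb5 := hB.1 b hb
      have hsd : (b \ ofM T).card = 1 := by
        rw [Finset.card_sdiff_of_subset hTb, hb5, hT2]
      obtain ⟨x, hx⟩ := Finset.card_eq_one.1 hsd
      have hxb : x ∈ b \ ofM T := by rw [hx]; exact Finset.mem_singleton_self _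
      obtain ⟨hx1, hx2⟩ := Finset.mem_sdiff.1 hxb
      have hbe : b = insert x (ofM T) := by
        ext y
        rw [Finset.mem_insert]
        constructor
        · intro hy
          by_cases hyT : y ∈ ofM T
          · exact Or.inr hyT
          · left
            have : y ∈ b \ ofM T := Finset.mem_sdiff.2 ⟨hy, hyT⟩
            rw [hx] at this
            exact Finset.mem_singleton.1 this
        · rintro (rfl | hy)
          · exact hx1
          · exact hTb hy
      set m := T ||| 2 ^ (x : ℕ) with hm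
      have hmb : ofM m = b := by rw [hm, ofM_or_pow _ _ x.2, hbe]
      have hmlt : m < 2 ^ 11 := Nat.or_lt_two_pow hT1 (Nat.pow_lt_pow_right (by norm_num) x.2)
      have hall := List.all_eq_true.1 h (x : ℕ) (by
        have : ∀ i : Fin 11, (i : ℕ) ∈ pts := by decide
        exact this x)
      have hxT : T.testBit x = false := by
        cases h1 : T.testBit x
        · rfl
        · exact absurd (mem_ofM.2 h1) hx2
      rw [hxT, Bool.false_or, ← hm] at hall
      have hland : Nat.land blk (nbF m) = 0 := by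
        by_contra hne
        obtain ⟨u, hu1, hu2⟩ := exists_bit_of_land_ne hne
        have hu3 : u ∈ nbrs m := (testBit_ofPts _ _).1 hu2
        obtain ⟨h1, h2, h3⟩ := nbrs_spec hmlt (by rw [hmb, hb5]) hu3
        have h4 := hg u hu1
        have h5 : ofM u = ofM m := two_blocks_eq hB h4 (hmb ▸ hb) h3
        exact h2 (ofM_inj h1 hmlt h5)
      have hbeq : Nat.beq (Nat.land blk (nbF m)) 0 = true := by rw [hland]; rfl
      rw [hbeq, Bool.not_true, Bool.false_or, force_eq] at hall
      refine ih hTs _ ?_ hall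
      intro u hu
      have : Nat.lor blk (2 ^ m) = blk ||| 2 ^ m := rfl
      rw [this, Nat.testBit_or, Bool.or_eq_true, Nat.testBit_two_pow, decide_eq_true_eq] at hu
      rcases hu with hu | rfl
      · exact hg u hu
      · rw [hmb]; exact hb

theorem tsL_ok : ∀ T ∈ tsL, T < 2 ^ 11 ∧ (ofM T).card = 4 := by decide +kernel

theorem testBit_blk0 {m : ℕ} (h : blk0.testBit m = true) : m = 31 ∨ m = 103 ∨ m = 171 ∨ m = 307 := by
  have e : blk0 = ofPts [31, 103, 171, 307] := by decide +kernel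
  rw [e, testBit_ofPts] at h
  simpa using h

/-- The model. -/
def modelS : Set (Finset (Fin 11)) := {b | ∃ l ∈ modelP, b = ofM (ofPts l)}

theorem model_card : ∀ l ∈ modelP, (ofM (ofPts l)).card = 5 := by decide +kernel

theorem model_cover : (List.range (2 ^ 11)).all (fun T => !(Nat.beq (pop T) 4) ||
    modelP.any fun l => Nat.beq (T &&& ofPts l) T) = true := by decide +kernel

theorem model_inter : ∀ l ∈ modelP, ∀ l' ∈ modelP, l = l' ∨ (ofM (ofPts l) ∩ ofM (ofPts l')).card ≤ 3 := by
  decide +kernel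

theorem model_steiner : IsSteinerSystem 4 5 modelS := by
  constructor
  · rintro _ ⟨l, hl, rfl⟩
    exact model_card l hl
  · intro s hs
    obtain ⟨T, hT, rfl⟩ := exists_mask s
    have h1 := List.all_eq_true.1 model_cover T (List.mem_range.2 hT)
    rw [card_ofM_pop T hT] at hs
    have h0 : Nat.beq (pop T) 4 = true := by rw [hs]; rfl
    rw [h0, Bool.not_true, Bool.false_or] at h1
    have h2 := List.any_eq_true.1 h1
    obtain ⟨l, hl, hTl⟩ := h2
    have hsub : ofM T ⊆ ofM (ofPts l) := by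
      intro i hi
      have h3 : T &&& ofPts l = T := Nat.eq_of_beq_eq_true hTl
      rw [← h3, ofM_and] at hi
      exact (Finset.mem_inter.1 hi).2
    refine ⟨_, ⟨⟨l, hl, rfl⟩, hsub⟩, ?_⟩
    rintro _ ⟨⟨l', hl', rfl⟩, hsub'⟩
    rcases model_inter l' hl' l hl with rfl | h4
    · rfl
    · exfalso
      have h5 := Finset.card_le_card (Finset.subset_inter hsub' hsub)
      rw [card_ofM_pop T hT, hs] at h5
      omega

theorem perms_ok : ∀ p ∈ permsL, (∀ i : Fin 11, p.getD i 0 < 11) ∧
    ∀ y : Fin 11, ∃ x : Fin 11, p.getD x 0 = y := by decide +kernel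

theorem modelP_lt : ∀ l ∈ modelP, ∀ i ∈ l, i < 11 := by decide +kernel

theorem mem_ofM_ofPts {l : List ℕ} {i : Fin 11} : i ∈ ofM (ofPts l) ↔ (i : ℕ) ∈ l := by
  rw [mem_ofM, testBit_ofPts]

/-- A normalised design is isomorphic to the model. -/
theorem iso_of_normal {B : Set (Finset (Fin 11))} (hB : IsSteinerSystem 4 5 B)
    (h0 : ofM 31 ∈ B) (h1 : ofM 103 ∈ B) (h2 : ofM 171 ∈ B) (h3 : ofM 307 ∈ B) :
    SetSystemIso modelS B := by
  have hg : Good B blk0 := by
    intro m hm
    rcases testBit_blk0 hm with rfl | rfl | rfl | rfl <;> assumption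
  obtain ⟨blk, hblk, hleaf⟩ := dfs_sound hB leafL tsL tsL_ok blk0 hg dfs_ok
  obtain ⟨p, hp, hall⟩ := List.any_eq_true.1 hleaf
  obtain ⟨hlt, hsur⟩ := perms_ok p hp
  let f : Fin 11 → Fin 11 := fun i => ⟨p.getD i 0, hlt i⟩
  have hfs : Function.Surjective f := by
    intro y
    obtain ⟨x, hx⟩ := hsur y
    exact ⟨x, Fin.ext hx⟩
  have hfi : Function.Injective f := Finite.injective_iff_surjective.2 hfs
  let e : Fin 11 ≃ Fin 11 := Equiv.ofBijective f ⟨hfi, hfs⟩
  have hsub : mapE e modelS ⊆ B := by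
    rintro _ ⟨_, ⟨l, hl, rfl⟩, rfl⟩
    have h4 := List.all_eq_true.1 hall l hl
    have h5 := hblk _ h4
    convert h5 using 1
    ext y
    simp only [Finset.mem_image, mem_ofM_ofPts, List.mem_map]
    constructor
    · rintro ⟨i, hi, rfl⟩
      exact ⟨i, hi, rfl⟩
    · rintro ⟨i, hi, hie⟩
      have hi11 := modelP_lt l hl i hi
      refine ⟨⟨i, hi11⟩, hi, Fin.ext hie⟩
  have := eq_of_subset (steiner_mapE e model_steiner) hB (by norm_num) hsub
  exact ⟨e, this⟩

/-- A normalising step. -/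
theorem norm_step {B : Set (Finset (Fin 11))} (hB : IsSteinerSystem 4 5 B)
    {L : List (Finset (Fin 11))} (hL : ∀ c ∈ L, c ∈ B) {F T : Finset (Fin 11)} (hT : T ⊆ F)
    (hTc : T.card = 4) {y : Fin 11} (hy : y ∉ F) (hFL : ∀ c ∈ L, c ⊆ F)
    (hbad : ∀ x ∈ F, x ∉ T → ∃ c ∈ L, 4 ≤ (insert x T ∩ c).card ∧ ¬ insert x T ⊆ c) :
    ∃ τ : Equiv.Perm (Fin 11), (∀ c ∈ L, c ∈ mapE τ B) ∧ insert y T ∈ mapE τ B := by
  obtain ⟨b, ⟨hb, hTb⟩, -⟩ := hB.2 T hTc
  have hb5 := hB.1 b hb
  have hsd : (b \ T).card = 1 := by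
    rw [Finset.card_sdiff_of_subset hTb, hb5, hTc]
  obtain ⟨x, hx⟩ := Finset.card_eq_one.1 hsd
  have hxb : x ∈ b \ T := by rw [hx]; exact Finset.mem_singleton_self _
  obtain ⟨hx1, hx2⟩ := Finset.mem_sdiff.1 hxb
  have hbe : b = insert x T := by
    ext z
    rw [Finset.mem_insert]
    constructor
    · intro hz
      by_cases hzT : z ∈ T
      · exact Or.inr hzT
      · left
        have : z ∈ b \ T := Finset.mem_sdiff.2 ⟨hz, hzT⟩
        rw [hx] at this
        exact Finset.mem_singleton.1 this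
    · rintro (rfl | hz)
      · exact hx1
      · exact hTb hz
  have hxF : x ∉ F := by
    intro hxF
    obtain ⟨c, hc, hc1, hc2⟩ := hbad x hxF hx2
    rw [← hbe] at hc1 hc2
    have := two_blocks_eq hB hb (hL c hc) hc1
    exact hc2 (by rw [this])
  refine ⟨Equiv.swap x y, ?_, ?_⟩
  · intro c hc
    refine ⟨c, hL c hc, ?_⟩
    ext z
    simp only [Finset.mem_image]
    constructor
    · rintro ⟨w, hw, rfl⟩
      have h1 : w ≠ x := fun e => hxF (e ▸ hFL c hc hw)
      have h2 : w ≠ y := fun e => hy (e ▸ hFL c hc hw)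
      rwa [Equiv.swap_apply_of_ne_of_ne h1 h2]
    · intro hz
      have h1 : z ≠ x := fun e => hxF (e ▸ hFL c hc hz)
      have h2 : z ≠ y := fun e => hy (e ▸ hFL c hc hz)
      exact ⟨z, hz, Equiv.swap_apply_of_ne_of_ne h1 h2⟩
  · refine ⟨b, hb, ?_⟩
    rw [hbe]
    show (insert x T).image (Equiv.swap x y) = insert y T
    rw [Finset.image_insert, Equiv.swap_apply_left]
    congr 1
    ext z
    simp only [Finset.mem_image]
    constructor
    · rintro ⟨w, hw, rfl⟩
      have h1 : w ≠ x := fun e => hxF (e ▸ hT hw)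
      have h2 : w ≠ y := fun e => hy (e ▸ hT hw)
      rwa [Equiv.swap_apply_of_ne_of_ne h1 h2]
    · intro hz
      have h1 : z ≠ x := fun e => hxF (e ▸ hT hz)
      have h2 : z ≠ y := fun e => hy (e ▸ hT hz)
      exact ⟨z, hz, Equiv.swap_apply_of_ne_of_ne h1 h2⟩

/-- Every design on eleven points is isomorphic to the model. -/
theorem iso_model_fin {B : Set (Finset (Fin 11))} (hB : IsSteinerSystem 4 5 B) :
    SetSystemIso B modelS := by
  -- first block
  obtain ⟨τ0, -, h0⟩ := norm_step hB (L := []) (by simp) (F := ofM 15) (T := ofM 15) (y := 4)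
    (Finset.Subset.refl _) (by decide +kernel) (by decide +kernel) (by simp) (by decide +kernel)
  have hB0 := steiner_mapE τ0 hB
  have e0 : insert (4 : Fin 11) (ofM 15) = ofM 31 := by decide +kernel
  rw [e0] at h0
  -- second block
  obtain ⟨τ1, h1', h1⟩ := norm_step hB0 (L := [ofM 31]) (by simpa using h0) (F := ofM 63) (T := ofM 39) (y := 6)
    (by decide +kernel) (by decide +kernel) (by decide +kernel) (by decide +kernel) (by decide +kernel)
  have hB1 := steiner_mapE τ1 hB0
  have e1 : insert (6 : Fin 11) (ofM 39) = ofM 103 := by decide +kernel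
  rw [e1] at h1
  have h10 := h1' _ (List.mem_singleton.2 rfl)
  -- third block
  obtain ⟨τ2, h2', h2⟩ := norm_step hB1 (L := [ofM 31, ofM 103]) (by simp [h10, h1]) (F := ofM 127) (T := ofM 43) (y := 7)
    (by decide +kernel) (by decide +kernel) (by decide +kernel) (by decide +kernel) (by decide +kernel)
  have hB2 := steiner_mapE τ2 hB1
  have e2 : insert (7 : Fin 11) (ofM 43) = ofM 171 := by decide +kernel
  rw [e2] at h2
  have h20 := h2' (ofM 31) (by simp)
  have h21 := h2' (ofM 103) (by simp)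
  -- fourth block
  obtain ⟨τ3, h3', h3⟩ := norm_step hB2 (L := [ofM 31, ofM 103, ofM 171]) (by simp [h20, h21, h2]) (F := ofM 255) (T := ofM 51) (y := 8)
    (by decide +kernel) (by decide +kernel) (by decide +kernel) (by decide +kernel) (by decide +kernel)
  have hB3 := steiner_mapE τ3 hB2
  have e3 : insert (8 : Fin 11) (ofM 51) = ofM 307 := by decide +kernel
  rw [e3] at h3
  have h30 := h3' (ofM 31) (by simp)
  have h31 := h3' (ofM 103) (by simp)
  have h32 := h3' (ofM 171) (by simp)
  have hiso := iso_of_normal hB3 h30 h31 h32 h3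
  exact iso_trans (iso_trans (iso_trans (iso_trans (iso_mapE τ0 B) (iso_mapE τ1 _)) (iso_mapE τ2 _)) (iso_mapE τ3 _)) (iso_symm hiso)

end S11

/-- Every design on a type with eleven elements is isomorphic to the model. -/
theorem iso_model {α : Type u} [Fintype α] [DecidableEq α] (hα : Fintype.card α = 11)
    {B : Set (Finset α)} (hB : IsSteinerSystem 4 5 B) : SetSystemIso B S11.modelS := by
  let e : α ≃ Fin 11 := Fintype.equivFinOfCardEq hα
  exact iso_trans (iso_mapE e B) (S11.iso_model_fin (steiner_mapE e hB))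

end Cfsg.Agent.Lib.SteinerU
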