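/-
The automorphism group of the design with two fixed points.
-/
import Cfsg.Agent.Lib.SteinerU.Bridge
import Cfsg.Prelude.Def_Sporadic

set_option autoImplicit false

universe u

namespace Cfsg.Agent.Lib.SteinerU

open Cfsg Cfsg.Agent.Lib.Golay Cfsg.Agent.Lib.M24 MulAction
open scoped Pointwise

/-- The order of the stabiliser of two points. -/
theorem H22_card : Nat.card H22 = 443520 := by
  have h := card_two_point (pt 23) (pt 0) (by decide)
  rw [← h]
  refine Nat.card_congr ⟨fun y => ⟨⟨y.1, (mem_stabL.1 y.2).1⟩, ?_⟩, fun x => ⟨x.1.1, ?_⟩, ?_, ?_⟩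
  · refine Subgroup.mem_inf.2 ⟨?_, ?_⟩
    · rw [mem_stabilizer_iff]
      exact (mem_stabL.1 y.2).2 23 (by simp)
    · rw [mem_stabilizer_iff]
      exact (mem_stabL.1 y.2).2 0 (by simp)
  · obtain ⟨h1, h2⟩ := Subgroup.mem_inf.1 x.2
    rw [mem_stabilizer_iff] at h1 h2
    refine mem_stabL.2 ⟨x.1.2, ?_⟩
    intro b hb
    simp only [List.mem_cons, List.not_mem_nil, or_false] at hb
    rcases hb with rfl | rfl
    · exact h1
    · exact h2
  · intro y
    rfl
  · intro x
    rfl

theorem tau_smul_of {Y : Finset GolayPt} (h1 : pP ∈ Y) (h2 : pQ ∈ Y) : tauP • Y = Y := by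
  apply smul_eq_of_maps _ rfl
  intro x hx
  by_cases h3 : x = pP
  · subst h3; rw [tau_P]; exact h2
  · by_cases h4 : x = pQ
    · subst h4; rw [tau_Q]; exact h1
    · rw [tau_of h3 h4]; exact hx

/-- An element of the group exchanging the two base points. -/
theorem exists_swap_elt : ∃ t ∈ M24, t pP = pQ ∧ t pQ = pP := by
  have hPS : pP ∈ S2 := by decide
  have hQS : pQ ∈ S2 := by decide
  obtain ⟨g, hg, hgf⟩ := exists_map_on (u := S2) (by rw [S2_card]; norm_num)
    (fun x => if x = pP then pQ else if x = pQ then pP else x)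
    (by
      intro x hx y hy hxy
      simp only [S2, Finset.coe_insert, Finset.coe_singleton, Set.mem_insert_iff,
        Set.mem_singleton_iff] at hx hy
      rcases hx with rfl | rfl <;> rcases hy with rfl | rfl <;>
        first | rfl | (exact absurd hxy (by decide)))
  exact ⟨g, hg, hgf _ hPS, hgf _ hQS⟩

section

variable {α : Type u} [Fintype α] [DecidableEq α] {B : Set (Finset α)} {j : α → GolayPt}
  (h : Emb S2 B j) (hB : IsSteinerSystem 3 6 B)

theorem phi_P (σ : Equiv.Perm α) : h.phi σ pP = pP := h.phi_S σ (by decide)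
theorem phi_Q (σ : Equiv.Perm α) : h.phi σ pQ = pQ := h.phi_S σ (by decide)

theorem phi_comm (σ : Equiv.Perm α) : h.phi σ * tauP = tauP * h.phi σ := by
  rw [tauP, Equiv.mul_swap_eq_swap_mul, phi_P h, phi_Q h]

/-- The subgroup of automorphisms lying in the group of the code. -/
noncomputable def H0 : Subgroup ↥(setSystemAut B) := M24.comap h.phiA

theorem mem_H0 {σ : ↥(setSystemAut B)} : σ ∈ H0 h ↔ h.phi σ.1 ∈ M24 := Iff.rfl

include hB

theorem dich (σ : ↥(setSystemAut B)) : h.phi σ.1 ∈ M24 ∨ tauP * h.phi σ.1 ∈ M24 := by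
  apply ext2 (phi_P h _) (phi_Q h _)
  intro O hO h1 h2
  refine (h.aut_iff hB (by rw [S2_card]) σ.1).1 σ.2 O hO ?_
  intro y hy
  simp only [S2, Finset.mem_insert, Finset.mem_singleton] at hy
  rcases hy with rfl | rfl
  · exact h1
  · exact h2

theorem exists_outer : ∃ σ : ↥(setSystemAut B), σ ∉ H0 h := by
  obtain ⟨t, ht, h1, h2⟩ := exists_swap_elt
  have hfix : ∀ y ∈ S2, (t * tauP) y = y := by
    intro y hy
    simp only [S2, Finset.mem_insert, Finset.mem_singleton] at hy
    rcases hy with rfl | rfl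
    · rw [Equiv.Perm.mul_apply, tau_P, h2]
    · rw [Equiv.Perm.mul_apply, tau_Q, h1]
  obtain ⟨σ, hσ⟩ := h.phi_surj hfix
  have hmem : σ ∈ setSystemAut B := by
    rw [h.aut_iff hB (by rw [S2_card]), hσ]
    intro O hO hS
    rw [mul_smul, tau_smul_of (hS (by decide)) (hS (by decide))]
    exact smul_octad ht hO
  refine ⟨⟨σ, hmem⟩, ?_⟩
  intro hin
  rw [mem_H0] at hin
  change h.phi σ ∈ M24 at hin
  rw [hσ] at hin
  apply tau_not_M24
  have := M24.mul_mem (M24.inv_mem ht) hin
  simpa using this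

theorem H0_index : (H0 h).index = 2 := by
  rw [Subgroup.index_eq_two_iff]
  obtain ⟨a, ha⟩ := exists_outer h hB
  refine ⟨a, fun b => ?_⟩
  by_cases hb : b ∈ H0 h
  · right
    refine ⟨hb, fun hba => ha ?_⟩
    have := (H0 h).mul_mem ((H0 h).inv_mem hb) hba
    simpa using this
  · left
    refine ⟨?_, hb⟩
    rw [mem_H0] at ha hb ⊢
    have h1 := (dich h hB b).resolve_left hb
    have h2 := (dich h hB a).resolve_left ha
    have h3 := M24.mul_mem h1 h2
    have e : (tauP * h.phi b.1) * (tauP * h.phi a.1) = h.phi (b * a).1 := by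
      have hτ : tauP * tauP = 1 := Equiv.swap_mul_self _ _
      calc (tauP * h.phi b.1) * (tauP * h.phi a.1)
          = tauP * (h.phi b.1 * tauP) * h.phi a.1 := by group
        _ = tauP * (tauP * h.phi b.1) * h.phi a.1 := by rw [phi_comm h]
        _ = (tauP * tauP) * (h.phi b.1 * h.phi a.1) := by group
        _ = h.phi (b * a).1 := by rw [hτ, one_mul]; simp
    rwa [e] at h3

omit hB in
/-- The subgroup is identified with the stabiliser of two points. -/
theorem H0_range (hB : IsSteinerSystem 3 6 B) : (h.phiA.comp (H0 h).subtype).range = H22 := by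
  ext g
  constructor
  · rintro ⟨σ, rfl⟩
    refine mem_stabL.2 ⟨σ.2, ?_⟩
    intro b hb
    simp only [List.mem_cons, List.not_mem_nil, or_false] at hb
    rcases hb with rfl | rfl
    · exact phi_P h _
    · exact phi_Q h _
  · intro hg
    obtain ⟨hg1, hg2⟩ := mem_stabL.1 hg
    obtain ⟨σ, hσ, rfl⟩ := h.exists_aut hB (by rw [S2_card]) hg1 (by
      intro y hy
      simp only [S2, Finset.mem_insert, Finset.mem_singleton] at hy
      rcases hy with rfl | rfl
      · exact hg2 23 (by simp)
      · exact hg2 0 (by simp))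
    exact ⟨⟨⟨σ, hσ⟩, hg1⟩, rfl⟩

theorem H0_inj : Function.Injective (h.phiA.comp (H0 h).subtype) :=
  h.phiA_inj.comp Subtype.val_injective

/-- The subgroup is isomorphic to the stabiliser of two points. -/
noncomputable def H0_equiv : ↥(H0 h) ≃* H22 :=
  equivOfRange _ (H0_inj h hB) (H0_range h hB)

theorem H0_M22 : IsM22 ↥(H0 h) := by
  refine ⟨?_, ?_⟩
  · haveI := H22_simple
    exact (H0_equiv h hB).isSimpleGroup
  · rw [Nat.card_congr (H0_equiv h hB).toEquiv, H22_card]

include h in
theorem aut_card : Nat.card ↥(setSystemAut B) = 887040 := by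
  have h1 := Subgroup.card_mul_index (H0 h)
  rw [H0_index h hB, (H0_M22 h hB).2] at h1
  omega

end

end Cfsg.Agent.Lib.SteinerU
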