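/-
The system on twelve points and the fixers of points.
-/
import Cfsg.Agent.Lib.SteinerU.S11
import Cfsg.Agent.Lib.SteinerU.Two

set_option autoImplicit false
set_option maxRecDepth 100000

universe u v

namespace Cfsg.Agent.Lib.SteinerU

open Cfsg Cfsg.Agent.Lib.Golay Cfsg.Agent.Lib.Golay.Steiner MulAction
open scoped Pointwise

section derived

variable {α : Type u} {β : Type v} [DecidableEq α] [DecidableEq β]

theorem mem_image_equiv' (e : α ≃ β) (b : Finset α) (y : β) : y ∈ b.image e ↔ e.symm y ∈ b := by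
  constructor
  · intro h
    obtain ⟨x, hx, rfl⟩ := Finset.mem_image.1 h
    simpa using hx
  · intro h
    exact Finset.mem_image.2 ⟨_, h, by simp⟩

/-- An isomorphism of derived designs extends. -/
theorem iso_of_der [Fintype α] [Fintype β] (hα : Fintype.card α = 12) (hβ : Fintype.card β = 12)
    {B : Set (Finset α)} {B' : Set (Finset β)} (hB : IsSteinerSystem 5 6 B)
    (hB' : IsSteinerSystem 5 6 B') (p : α) (q : β) (h : SetSystemIso (der B p) (der B' q)) :
    SetSystemIso B B' := by
  obtain ⟨f, hf⟩ := h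
  let g : α → β := fun x => if h : x = p then q else (f ⟨x, h⟩).1
  have g_p : g p = q := by simp [g]
  have g_ne : ∀ {x} (h : x ≠ p), g x = (f ⟨x, h⟩).1 := fun {x} h => by simp [g, h]
  have hinj : Function.Injective g := by
    intro a b hab
    by_cases ha : a = p <;> by_cases hb : b = p
    · rw [ha, hb]
    · exfalso
      rw [ha, g_p, g_ne hb] at hab
      exact (f ⟨b, hb⟩).2 hab.symm
    · exfalso
      rw [hb, g_p, g_ne ha] at hab
      exact (f ⟨a, ha⟩).2 hab
    · rw [g_ne ha, g_ne hb] at hab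
      exact congrArg Subtype.val (f.injective (Subtype.ext hab))
  have hsur : Function.Surjective g := by
    intro y
    by_cases hy : y = q
    · exact ⟨p, by rw [g_p, hy]⟩
    · refine ⟨(f.symm ⟨y, hy⟩).1, ?_⟩
      rw [g_ne (f.symm ⟨y, hy⟩).2]
      simp
  let e : α ≃ β := Equiv.ofBijective g ⟨hinj, hsur⟩
  have hon : ∀ b ∈ B, p ∈ b → b.image e ∈ B' := by
    intro b hb hp
    have h1 : (Finset.subtype (fun a => a ≠ p) b).image f ∈ der B' q := by
      rw [← hf]
      exact ⟨_, ⟨b, hb, hp, rfl⟩, rfl⟩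
    obtain ⟨c, hc, hqc, hce⟩ := h1
    have : b.image e = c := by
      ext y
      by_cases hy : y = q
      · subst hy
        simp only [hqc, iff_true]
        exact Finset.mem_image.2 ⟨p, hp, g_p⟩
      · have h2 : y ∈ c ↔ (⟨y, hy⟩ : {a : β // a ≠ q}) ∈ (Finset.subtype (fun a => a ≠ p) b).image f := by
          rw [hce, Finset.mem_subtype]
        rw [h2]
        simp only [Finset.mem_image, Finset.mem_subtype, Subtype.exists]
        constructor
        · rintro ⟨x, hx, rfl⟩
          by_cases hxp : x = p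
          · subst hxp
            exact absurd (g_p) hy
          · refine ⟨x, hxp, hx, ?_⟩
            apply Subtype.ext
            exact (g_ne hxp).symm
        · rintro ⟨x, hxp, hx, hfe⟩
          refine ⟨x, hx, ?_⟩
          show g x = y
          rw [g_ne hxp, hfe]
    rw [this]
    exact hc
  have hsub : mapE e B ⊆ B' := by
    rintro _ ⟨b, hb, rfl⟩
    by_cases hp : p ∈ b
    · exact hon b hb hp
    · have h1 := compl_5_6_12 hα hB hb
      have h2 : p ∈ bᶜ := Finset.mem_compl.2 hp
      have h3 := hon _ h1 h2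
      have h4 := compl_5_6_12 hβ hB' h3
      convert h4 using 1
      ext y
      simp only [Finset.mem_compl, mem_image_equiv' e, not_not]
  exact ⟨e, eq_of_subset (steiner_mapE e hB) hB' (by norm_num) hsub⟩

end derived

theorem iso_12 {α : Type u} {β : Type v} [Fintype α] [DecidableEq α] [Fintype β] [DecidableEq β]
    (hα : Fintype.card α = 12) (hβ : Fintype.card β = 12) {B : Set (Finset α)} {B' : Set (Finset β)}
    (hB : IsSteinerSystem 5 6 B) (hB' : IsSteinerSystem 5 6 B') : SetSystemIso B B' := by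
  obtain ⟨p⟩ : Nonempty α := Fintype.card_pos_iff.1 (by omega)
  obtain ⟨q⟩ : Nonempty β := Fintype.card_pos_iff.1 (by omega)
  have hD : IsSteinerSystem 4 5 (der B p) := Cfsg.Agent.S0351.result (t := 4) (k := 5) hB p
  have hD' : IsSteinerSystem 4 5 (der B' q) := Cfsg.Agent.S0351.result (t := 4) (k := 5) hB' q
  apply iso_of_der hα hβ hB hB' p q
  exact iso_trans (iso_model (by rw [card_ne, hα]) hD) (iso_symm (iso_model (by rw [card_ne, hβ]) hD'))

namespace S11

/-- The mask of the blocks of the model. -/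
def mdlB : ℕ := ofPts (modelP.map ofPts)

/-- A partial map respects the blocks it is defined on. -/
def pOK (f : List ℕ) : Bool :=
  modelP.all fun l => !(l.all fun i => decide (i < f.length)) || mdlB.testBit (ofPts (l.map fun i => f.getD i 0))

/-- The identity list. -/
def idL : List ℕ := [0, 1, 2, 3, 4, 5, 6, 7, 8, 9, 10]

/-- The search for automorphisms. -/
def chk : ℕ → List ℕ → Bool
  | 0, f => f == idL
  | k + 1, f => pts.all fun v => !(pOK (f ++ [v])) || chk k (f ++ [v])

theorem chk_ok : chk 7 [0, 1, 2, 3] = true := by decide +kernel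

theorem ofPts_lt : ∀ {l : List ℕ}, (∀ i ∈ l, i < 11) → ofPts l < 2 ^ 11 := by
  intro l
  induction l with
  | nil => intro _; simp [ofPts]
  | cons a l ih =>
    intro h
    have e : ofPts (a :: l) = 2 ^ a ||| ofPts l := rfl
    rw [e]
    exact Nat.or_lt_two_pow (Nat.pow_lt_pow_right (by norm_num) (h a (by simp)))
      (ih fun i hi => h i (by simp [hi]))

variable {τ : Equiv.Perm (Fin 11)}

/-- The values of a permutation. -/
def tv (τ : Equiv.Perm (Fin 11)) (i : ℕ) : ℕ := if h : i < 11 then (τ ⟨i, h⟩ : ℕ) else 0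

/-- The first values of a permutation. -/
def pref (τ : Equiv.Perm (Fin 11)) (n : ℕ) : List ℕ := (List.range n).map (tv τ)

theorem pref_succ (τ : Equiv.Perm (Fin 11)) (n : ℕ) : pref τ (n + 1) = pref τ n ++ [tv τ n] := by
  simp [pref, List.range_succ]

theorem pref_len (τ : Equiv.Perm (Fin 11)) (n : ℕ) : (pref τ n).length = n := by simp [pref]

theorem pref_getD (τ : Equiv.Perm (Fin 11)) {n i : ℕ} (h : i < n) : (pref τ n).getD i 0 = tv τ i := by
  simp [pref, List.getD, h]

theorem pOK_pref (hτ : τ ∈ setSystemAut modelS) (n : ℕ) : pOK (pref τ n) = true := by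
  apply List.all_eq_true.2
  intro l hl
  by_cases hall : (l.all fun i => decide (i < (pref τ n).length)) = true
  · rw [hall, Bool.not_true, Bool.false_or]
    have hlt : ∀ i ∈ l, i < n := by
      intro i hi
      have := List.all_eq_true.1 hall i hi
      rw [pref_len] at this
      simpa using this
    have e1 : l.map (fun i => (pref τ n).getD i 0) = l.map (tv τ) :=
      List.map_congr_left fun i hi => pref_getD τ (hlt i hi)
    rw [e1]
    have hb : ofM (ofPts l) ∈ modelS := ⟨l, hl, rfl⟩
    have himg := smul_mem_of_aut hτ hb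
    obtain ⟨l', hl', hl'e⟩ := himg
    have hl11 := modelP_lt l hl
    have e2 : ofM (ofPts (l.map (tv τ))) = τ • ofM (ofPts l) := by
      ext y
      rw [Finset.mem_smul_finset, mem_ofM_ofPts, List.mem_map]
      constructor
      · rintro ⟨i, hi, hie⟩
        refine ⟨⟨i, hl11 i hi⟩, mem_ofM_ofPts.2 hi, ?_⟩
        apply Fin.ext
        rw [← hie, Equiv.Perm.smul_def]
        simp [tv, hl11 i hi]
      · rintro ⟨i, hi, rfl⟩
        refine ⟨i, mem_ofM_ofPts.1 hi, ?_⟩
        simp [tv]
    have e3 : ofPts (l.map (tv τ)) = ofPts l' := by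
      apply ofM_inj
      · apply ofPts_lt
        intro i hi
        obtain ⟨a, -, rfl⟩ := List.mem_map.1 hi
        unfold tv
        split_ifs with h
        · exact (τ ⟨a, h⟩).2
        · norm_num
      · exact ofPts_lt (modelP_lt l' hl')
      · rw [e2, hl'e]
    rw [e3]
    exact (testBit_ofPts _ _).2 (List.mem_map.2 ⟨l', hl', rfl⟩)
  · have hf : (l.all fun i => decide (i < (pref τ n).length)) = false := by simpa using hall
    rw [hf]
    rfl

theorem tv_mem (τ : Equiv.Perm (Fin 11)) {n : ℕ} (hn : n < 11) : tv τ n ∈ pts := by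
  have : ∀ i : Fin 11, (i : ℕ) ∈ pts := by decide
  simp only [tv, hn, dif_pos]
  exact this _

theorem chk_pref (hτ : τ ∈ setSystemAut modelS) : ∀ (k n : ℕ), n + k = 11 → chk k (pref τ n) = true →
    pref τ 11 = idL := by
  intro k
  induction k with
  | zero =>
    intro n hn h
    have : n = 11 := by omega
    subst this
    exact beq_iff_eq.1 h
  | succ k ih =>
    intro n hn h
    have h1 := List.all_eq_true.1 h _ (tv_mem τ (by omega : n < 11))
    rw [← pref_succ, pOK_pref hτ, Bool.not_true, Bool.false_or] at h1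
    exact ih (n + 1) (by omega) h1

/-- An automorphism of the model fixing four points is trivial. -/
theorem model_fix (hτ : τ ∈ setSystemAut modelS) (h0 : τ 0 = 0) (h1 : τ 1 = 1) (h2 : τ 2 = 2)
    (h3 : τ 3 = 3) : τ = 1 := by
  have hp : pref τ 4 = [0, 1, 2, 3] := by
    simp only [pref, List.range_succ, List.range_zero, List.nil_append, List.map_append, List.map_cons, List.map_nil]
    have tv_of : ∀ (i : ℕ) (hi : i < 11), τ ⟨i, hi⟩ = ⟨i, hi⟩ → tv τ i = i := by
      intro i hi h
      simp [tv, hi, h]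
    have t0 : tv τ 0 = 0 := tv_of 0 (by norm_num) h0
    have t1 : tv τ 1 = 1 := tv_of 1 (by norm_num) h1
    have t2 : tv τ 2 = 2 := tv_of 2 (by norm_num) h2
    have t3 : tv τ 3 = 3 := tv_of 3 (by norm_num) h3
    rw [t0, t1, t2, t3]
    rfl
  have h := chk_pref hτ 7 4 (by norm_num) (by rw [hp]; exact chk_ok)
  apply Equiv.ext
  intro i
  have h4 : (pref τ 11).getD i 0 = idL.getD i 0 := by rw [h]
  rw [pref_getD τ i.2] at h4
  have h5 : ∀ j : Fin 11, idL.getD j 0 = j := by decide
  rw [h5] at h4
  apply Fin.ext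
  simpa [tv] using h4

end S11

section fixers

variable {α : Type u} [Fintype α] [DecidableEq α]

/-- A fixer in a design on eleven points. -/
theorem exists_fixer_11 (hα : Fintype.card α = 11) {B : Set (Finset α)} (hB : IsSteinerSystem 4 5 B) :
    ∃ x : Fin 4 ↪ α, ∀ σ ∈ setSystemAut B, (∀ i, σ (x i) = x i) → σ = 1 := by
  obtain ⟨e, he⟩ := iso_model hα hB
  let c : Fin 4 ↪ Fin 11 := Fin.castLEEmb (by norm_num)
  refine ⟨c.trans e.symm.toEmbedding, ?_⟩
  intro σ hσ hfix
  let τ : Equiv.Perm (Fin 11) := e.symm.trans (σ.trans e)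
  have hτ : τ ∈ setSystemAut S11.modelS := by
    rw [mem_aut_iff_forall]
    intro c' hc'
    rw [← he] at hc' ⊢
    obtain ⟨b, hb, rfl⟩ := hc'
    refine ⟨σ • b, smul_mem_of_aut hσ hb, ?_⟩
    ext y
    simp only [Finset.mem_image, Finset.mem_smul_finset, Equiv.Perm.smul_def]
    constructor
    · rintro ⟨_, ⟨z, hz, rfl⟩, rfl⟩
      exact ⟨e z, ⟨z, hz, rfl⟩, by simp [τ]⟩
    · rintro ⟨_, ⟨z, hz, rfl⟩, rfl⟩
      exact ⟨_, ⟨z, hz, rfl⟩, by simp [τ]⟩
  have hfx : ∀ i : Fin 4, τ (c i) = c i := by
    intro i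
    have := hfix i
    simp only [τ, Equiv.trans_apply]
    show e (σ (e.symm (c i))) = c i
    have h2 : σ (e.symm (c i)) = e.symm (c i) := this
    rw [h2]
    simp
  have h1 := S11.model_fix hτ (hfx 0) (hfx 1) (hfx 2) (hfx 3)
  apply Equiv.ext
  intro x
  have h2 : τ (e x) = e x := by rw [h1]; rfl
  simp only [τ, Equiv.trans_apply, Equiv.symm_apply_apply] at h2
  exact e.injective h2

/-- A fixer in a design on twelve points. -/
theorem exists_fixer_12 (hα : Fintype.card α = 12) {B : Set (Finset α)} (hB : IsSteinerSystem 5 6 B) :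
    ∃ x : Fin 5 ↪ α, ∀ σ ∈ setSystemAut B, (∀ i, σ (x i) = x i) → σ = 1 := by
  obtain ⟨p⟩ : Nonempty α := Fintype.card_pos_iff.1 (by omega)
  have hD : IsSteinerSystem 4 5 (der B p) := Cfsg.Agent.S0351.result (t := 4) (k := 5) hB p
  obtain ⟨x0, hx0⟩ := exists_fixer_11 (by rw [card_ne, hα]) hD
  let f : Fin 5 → α := Fin.cons p (fun i => (x0 i).1)
  have hf : Function.Injective f := by
    intro a b hab
    induction a using Fin.cases with
    | zero =>
      induction b using Fin.cases with
      | zero => rfl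
      | succ b =>
        exact absurd (show p = (x0 b).1 from hab).symm (x0 b).2
    | succ a =>
      induction b using Fin.cases with
      | zero =>
        exact absurd (show (x0 a).1 = p from hab) (x0 a).2
      | succ b =>
        have : (x0 a).1 = (x0 b).1 := hab
        rw [x0.injective (Subtype.ext this)]
  refine ⟨⟨f, hf⟩, ?_⟩
  intro σ hσ hfix
  have hp : σ p = p := hfix 0
  have hne : ∀ a, a ≠ p ↔ σ a ≠ p := by
    intro a
    constructor
    · intro h1 h2
      exact h1 (σ.injective (h2.trans hp.symm))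
    · rintro h1 rfl
      exact h1 hp
  let σ' : Equiv.Perm {a : α // a ≠ p} := σ.subtypePerm (fun a => (hne a).symm)
  have hσ' : σ' ∈ setSystemAut (der B p) := by
    rw [mem_aut_iff_forall]
    rintro _ ⟨b, hb, hpb, rfl⟩
    refine ⟨σ • b, smul_mem_of_aut hσ hb, ?_, ?_⟩
    · rw [← hp]
      exact Finset.smul_mem_smul_finset hpb
    · ext y
      simp only [Finset.mem_smul_finset, Finset.mem_subtype, Equiv.Perm.smul_def]
      constructor
      · rintro ⟨z, hz, rfl⟩
        exact ⟨z.1, hz, rfl⟩
      · rintro ⟨z, hz, hze⟩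
        have hzp : z ≠ p := by
          intro h
          apply y.2
          rw [← hze, h, hp]
        exact ⟨⟨z, hzp⟩, hz, Subtype.ext hze⟩
  have hfx : ∀ i, σ' (x0 i) = x0 i := by
    intro i
    apply Subtype.ext
    exact hfix i.succ
  have h1 := hx0 σ' hσ' hfx
  apply Equiv.ext
  intro a
  by_cases ha : a = p
  · rw [ha, hp]; rfl
  · have h2 : σ' ⟨a, ha⟩ = ⟨a, ha⟩ := by rw [h1]; rfl
    exact congrArg Subtype.val h2

end fixers

end Cfsg.Agent.Lib.SteinerU
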