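/-
The systems on eleven and twelve points through the base dodecad.
-/
import Cfsg.Agent.Lib.SteinerU.S12
import Cfsg.Agent.Lib.Golay.Dodecad
import Cfsg.Prelude.Def_Sporadic

set_option autoImplicit false

universe u

namespace Cfsg.Agent.Lib.SteinerU

open Cfsg Cfsg.Agent.Lib.Golay Cfsg.Agent.Lib.M24 MulAction
open scoped Pointwise

/-- Six points cut out on the base dodecad by an octad. -/
def Hx (s : Finset GolayPt) : Prop := ∃ o ∈ octads, (o ∩ D0).card = 6 ∧ o ∩ D0 = s

theorem Hx_smul {g : Equiv.Perm GolayPt} (hg : g ∈ M12B) {s : Finset GolayPt} (hs : Hx s) : Hx (g • s) := by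
  obtain ⟨hg1, hg2⟩ := mem_M12B_iff.1 hg
  obtain ⟨o, ho, h6, rfl⟩ := hs
  refine ⟨g • o, smul_octad hg1 ho, ?_, ?_⟩
  · have : g • o ∩ D0 = g • (o ∩ D0) := by
      rw [Finset.smul_finset_inter, hg2]
    rw [this, Finset.card_smul_finset, h6]
  · rw [Finset.smul_finset_inter, hg2]

/-- An embedding in the base dodecad. -/
structure EmH {α : Type u} (A : Finset GolayPt) (B : Set (Finset α)) (j : α → GolayPt) : Prop where
  inj : Function.Injective j
  memD : ∀ x, j x ∈ D0
  avoid : ∀ x, j x ∉ A
  cover : ∀ y ∈ D0, y ∉ A → ∃ x, j x = y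
  blocks : ∀ b ∈ B, Hx (b.image j ∪ A)

section

variable {α : Type u} [Fintype α] [DecidableEq α] {A : Finset GolayPt} {B : Set (Finset α)}
  {j : α → GolayPt}

theorem EmH.disj (h : EmH A B j) (a : Finset α) : Disjoint (a.image j) A := by
  rw [Finset.disjoint_left]
  intro y hy hyA
  obtain ⟨x, _, rfl⟩ := Finset.mem_image.1 hy
  exact h.avoid x hyA

/-- Membership in the design. -/
theorem EmH.mem_of (h : EmH A B j) {t k : ℕ} (hB : IsSteinerSystem t k B) (ht : A.card + t = 5)
    {b : Finset α} (hb : Hx (b.image j ∪ A)) : b ∈ B := by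
  obtain ⟨o, ho, h6, he⟩ := hb
  have hcard : b.card + A.card = 6 := by
    rw [he, Finset.card_union_of_disjoint (h.disj b), Finset.card_image_of_injective _ h.inj] at h6
    exact h6
  obtain ⟨T, hT, hTc⟩ := Finset.exists_subset_card_eq (s := b) (n := t) (by omega)
  obtain ⟨c, ⟨hc, hTc'⟩, -⟩ := hB.2 T hTc
  obtain ⟨o', ho', h6', he'⟩ := h.blocks c hc
  have hd : Disjoint (T.image j) A := h.disj T
  have hU : (T.image j ∪ A).card = 5 := by
    rw [Finset.card_union_of_disjoint hd, Finset.card_image_of_injective _ h.inj, hTc]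
    omega
  have h1 : T.image j ∪ A ⊆ o := by
    have : T.image j ∪ A ⊆ b.image j ∪ A := Finset.union_subset_union_left (Finset.image_subset_image hT)
    rw [← he] at this
    exact this.trans Finset.inter_subset_left
  have h2 : T.image j ∪ A ⊆ o' := by
    have : T.image j ∪ A ⊆ c.image j ∪ A := Finset.union_subset_union_left (Finset.image_subset_image hTc')
    rw [← he'] at this
    exact this.trans Finset.inter_subset_left
  have e := octad_unique hU ho ho' h1 h2
  rw [e, he'] at he
  have := union_cancel (h.disj c) (h.disj b) he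
  rwa [← Finset.image_injective h.inj this]

variable {G : Subgroup (Equiv.Perm GolayPt)}

theorem EmH.apply_mem (h : EmH A B j) (hG : ∀ g, g ∈ G ↔ g ∈ M12B ∧ ∀ a ∈ A, g a = a)
    (g : ↥G) (x : α) : ∃ x', j x' = g.1 (j x) := by
  obtain ⟨hg1, hg2⟩ := (hG g.1).1 g.2
  apply h.cover
  · obtain ⟨-, h2⟩ := mem_M12B_iff.1 hg1
    rw [← h2]
    exact Finset.smul_mem_smul_finset (h.memD x)
  · intro hA
    have := hg2 _ hA
    have h3 : g.1 (j x) = j x := g.1.injective this
    exact h.avoid x (h3 ▸ hA)

/-- The action on the design. -/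
theorem EmH.exists_rho (h : EmH A B j) (hG : ∀ g, g ∈ G ↔ g ∈ M12B ∧ ∀ a ∈ A, g a = a) :
    ∃ ρ : ↥G →* Equiv.Perm α, ∀ g x, j (ρ g x) = g.1 (j x) := by
  choose f hf using h.apply_mem hG
  let F : ↥G → Equiv.Perm α := fun g =>
    { toFun := f g
      invFun := f g⁻¹
      left_inv := fun x => h.inj (by rw [hf, hf]; simp)
      right_inv := fun x => h.inj (by rw [hf, hf]; simp) }
  refine ⟨MonoidHom.mk' F ?_, fun g x => hf g x⟩
  intro a b
  apply Equiv.ext
  intro x
  apply h.inj
  show j (f (a * b) x) = j (f a (f b x))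
  rw [hf, hf, hf]
  rfl

/-- Five points of the base dodecad determine an element. -/
theorem exists_map12 (p q : Fin 5 → GolayPt) (hp : Function.Injective p) (hq : Function.Injective q)
    (hpD : ∀ i, p i ∈ D0) (hqD : ∀ i, q i ∈ D0) : ∃ g ∈ M12B, ∀ i, g (p i) = q i := by
  obtain ⟨a, ha, ha0, ha1, ha2, ha3, ha4⟩ := exists_base12_to p hp hpD
  obtain ⟨b, hb, hb0, hb1, hb2, hb3, hb4⟩ := exists_base12_to q hq hqD
  refine ⟨b * a⁻¹, M12B.mul_mem hb (M12B.inv_mem ha), ?_⟩
  have key : ∀ (i : Fin 5) (r : GolayPt), a r = p i → b r = q i → (b * a⁻¹) (p i) = q i := by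
    intro i r h2 h3
    rw [Equiv.Perm.mul_apply, ← h2]
    simpa using h3
  intro i
  fin_cases i
  · exact key 0 _ ha0 hb0
  · exact key 1 _ ha1 hb1
  · exact key 2 _ ha2 hb2
  · exact key 3 _ ha3 hb3
  · exact key 4 _ ha4 hb4

theorem D0_card : D0.card = 12 := by decide +kernel

/-- Agreement on the dodecad. -/
theorem eq_one_of_fix_D0 {g : Equiv.Perm GolayPt} (hg : g ∈ M12B) (h : ∀ y ∈ D0, g y = y) : g = 1 := by
  obtain ⟨s, hs, hs5⟩ := Finset.exists_subset_card_eq (s := D0) (n := 5) (by rw [D0_card]; norm_num)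
  let e := s.equivFinOfCardEq hs5
  let p : Fin 5 → GolayPt := fun i => (e.symm i).1
  have hp : Function.Injective p := fun a b hab => e.symm.injective (Subtype.ext hab)
  have hpD : ∀ i, p i ∈ D0 := fun i => hs (e.symm i).2
  exact eq_of_agree_five p hp hpD hg (M12B.one_mem) (fun i => by rw [h _ (hpD i)]; rfl)

variable {t k : ℕ}

/-- The conclusion for a design embedded in the dodecad. -/
structure AutData (A : Finset GolayPt) (G : Subgroup (Equiv.Perm GolayPt)) (B : Set (Finset α)) (t : ℕ) : Prop where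
  equiv : Nonempty (↥(setSystemAut B) ≃* ↥G)
  trans : MulAction.IsMultiplyPretransitive (setSystemAut B) α t
  sharp : ∀ x : Fin t ↪ α, MulAction.stabilizer (setSystemAut B) x = ⊥

theorem EmH.autData (h : EmH A B j) (hB : IsSteinerSystem t k B) (ht : A.card + t = 5)
    (hG : ∀ g, g ∈ G ↔ g ∈ M12B ∧ ∀ a ∈ A, g a = a)
    (hfix : ∃ x : Fin t ↪ α, ∀ σ ∈ setSystemAut B, (∀ i, σ (x i) = x i) → σ = 1)
    (htr : ∀ x y : Fin t ↪ α, ∃ g ∈ G, ∀ i, g (j (x i)) = j (y i))
    (hsh : ∀ x : Fin t ↪ α, ∀ g ∈ G, (∀ i, g (j (x i)) = j (x i)) → g = 1) :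
    AutData A G B t := by
  obtain ⟨ρ, hρ⟩ := h.exists_rho hG
  have hρinj : Function.Injective ρ := by
    rw [injective_iff_map_eq_one]
    intro g hg
    apply Subtype.ext
    obtain ⟨hg1, hg2⟩ := (hG g.1).1 g.2
    apply eq_one_of_fix_D0 hg1
    intro y hy
    by_cases hyA : y ∈ A
    · exact hg2 y hyA
    · obtain ⟨x, rfl⟩ := h.cover y hy hyA
      rw [← hρ, hg]
      rfl
  have hsmul : ∀ (g : ↥G) (b : Finset α), (ρ g • b).image j ∪ A = g.1 • (b.image j ∪ A) := by
    intro g b
    have h1 : g.1 • A = A := by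
      apply smul_eq_of_maps _ rfl
      intro x hx
      rw [((hG g.1).1 g.2).2 x hx]
      exact hx
    have h2 : (ρ g • b).image j = g.1 • b.image j := by
      rw [Finset.smul_finset_def, Finset.smul_finset_def, Finset.image_image, Finset.image_image]
      apply Finset.image_congr
      intro x _
      exact hρ g x
    rw [Finset.smul_finset_union, h1, h2]
  have hmem : ∀ g, ρ g ∈ setSystemAut B := by
    intro g
    rw [mem_aut_iff_forall]
    intro b hb
    apply h.mem_of hB ht
    rw [hsmul]
    exact Hx_smul ((hG g.1).1 g.2).1 (h.blocks b hb)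
  have hrange : ρ.range = setSystemAut B := by
    ext σ
    constructor
    · rintro ⟨g, rfl⟩
      exact hmem g
    · intro hσ
      obtain ⟨x, hx⟩ := hfix
      obtain ⟨g, hg, hgx⟩ := htr x (x.trans σ.toEmbedding)
      have h1 : (ρ ⟨g, hg⟩)⁻¹ * σ = 1 := by
        apply hx _ ((setSystemAut B).mul_mem ((setSystemAut B).inv_mem (hmem _)) hσ)
        intro i
        rw [Equiv.Perm.mul_apply, Equiv.Perm.inv_eq_iff_eq]
        apply h.inj
        rw [hρ]
        exact (hgx i).symm
      exact ⟨⟨g, hg⟩, (inv_mul_eq_one.1 h1)⟩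
  refine ⟨⟨((MonoidHom.ofInjective hρinj).trans (MulEquiv.subgroupCongr hrange)).symm⟩, ?_, ?_⟩
  · constructor
    intro x y
    obtain ⟨g, hg, hgx⟩ := htr x y
    refine ⟨⟨ρ ⟨g, hg⟩, hmem _⟩, ?_⟩
    ext i
    show ρ ⟨g, hg⟩ (x i) = y i
    apply h.inj
    rw [hρ]
    exact hgx i
  · intro x
    rw [eq_bot_iff]
    rintro ⟨σ, hσ⟩ hs
    rw [← hrange] at hσ
    obtain ⟨g, rfl⟩ := hσ
    have hfx : ∀ i, ρ g (x i) = x i := by
      intro i
      have := congrArg (fun w : Fin t ↪ α => w i) (mem_stabilizer_iff.1 hs)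
      exact this
    have h1 := hsh x g.1 g.2 (fun i => by rw [← hρ, hfx])
    rw [Subgroup.mem_bot]
    apply Subtype.ext
    show ρ g = 1
    rw [show g = 1 from Subtype.ext h1, map_one]

end

/-! ### The two cases -/

theorem M12B_iff (g : Equiv.Perm GolayPt) : g ∈ M12B ↔ g ∈ M12B ∧ ∀ a ∈ (∅ : Finset GolayPt), g a = a := by
  simp

theorem M11B_iff (g : Equiv.Perm GolayPt) : g ∈ M11B ↔ g ∈ M12B ∧ ∀ a ∈ ({pt 23} : Finset GolayPt), g a = a := by
  rw [mem_stabL]
  simp

/-- The design of hexads on the dodecad. -/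
abbrev hexD : Set (Finset {p : GolayPt // p ∈ D0}) :=
  {h | ∃ o ∈ octads, (o ∩ D0).card = 6 ∧ h = Finset.subtype (fun p => p ∈ D0) o}

theorem hexD_steiner : IsSteinerSystem 5 6 hexD := dodecad_steiner D0_mem

theorem card_D0sub : Fintype.card {p : GolayPt // p ∈ D0} = 12 := by
  rw [Fintype.card_coe, D0_card]

theorem image_val_subtype (o : Finset GolayPt) :
    (Finset.subtype (fun p => p ∈ D0) o).image Subtype.val = o ∩ D0 := by
  ext y
  simp only [Finset.mem_image, Finset.mem_subtype, Finset.mem_inter, Subtype.exists, exists_and_right,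
    exists_eq_right]
  tauto

section

variable {α : Type u} [Fintype α] [DecidableEq α] {B : Set (Finset α)}

theorem autData_12 (hα : Fintype.card α = 12) (hB : IsSteinerSystem 5 6 B) : AutData ∅ M12B B 5 := by
  obtain ⟨e, he⟩ := iso_12 hα card_D0sub hB hexD_steiner
  let j : α → GolayPt := fun x => (e x).1
  have hj : EmH ∅ B j := by
    refine ⟨fun a b hab => e.injective (Subtype.ext hab), fun x => (e x).2, fun x => by simp, ?_, ?_⟩
    · intro y hy _
      exact ⟨e.symm ⟨y, hy⟩, by simp [j]⟩
    · intro b hb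
      have h1 : b.image e ∈ hexD := by
        rw [← he]
        exact ⟨b, hb, rfl⟩
      obtain ⟨o, ho, h6, h7⟩ := h1
      refine ⟨o, ho, h6, ?_⟩
      rw [← image_val_subtype, ← h7, Finset.union_empty, Finset.image_image]
      rfl
  refine hj.autData hB (by rfl) M12B_iff (exists_fixer_12 hα hB) ?_ ?_
  · intro x y
    exact exists_map12 _ _ (fun a b hab => x.injective (hj.inj hab)) (fun a b hab => y.injective (hj.inj hab))
      (fun i => hj.memD _) (fun i => hj.memD _)
  · intro x g hg hgx
    exact eq_of_agree_five _ (fun a b hab => x.injective (hj.inj hab)) (fun i => hj.memD (x i)) hg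
      (M12B.one_mem) hgx

theorem pt23_D0 : pt 23 ∈ D0 := by decide +kernel

/-- The base point of the dodecad. -/
abbrev p0D : {p : GolayPt // p ∈ D0} := ⟨pt 23, pt23_D0⟩

theorem autData_11 (hα : Fintype.card α = 11) (hB : IsSteinerSystem 4 5 B) :
    AutData {pt 23} M11B B 4 := by
  have hD : IsSteinerSystem 4 5 (der hexD p0D) := Cfsg.Agent.S0351.result (t := 4) (k := 5) hexD_steiner p0D
  obtain ⟨e, he⟩ : SetSystemIso B (der hexD p0D) :=
    iso_trans (iso_model hα hB) (iso_symm (iso_model (by rw [card_ne, card_D0sub]) hD))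
  let j : α → GolayPt := fun x => (e x).1.1
  have hne : ∀ x, j x ≠ pt 23 := by
    intro x h
    exact (e x).2 (Subtype.ext h)
  have hj : EmH {pt 23} B j := by
    refine ⟨fun a b hab => e.injective (Subtype.ext (Subtype.ext hab)), fun x => (e x).1.2, ?_, ?_, ?_⟩
    · intro x h
      exact hne x (Finset.mem_singleton.1 h)
    · intro y hy hyA
      have h1 : (⟨y, hy⟩ : {p : GolayPt // p ∈ D0}) ≠ p0D := by
        intro h2
        apply hyA
        rw [Finset.mem_singleton]
        exact congrArg Subtype.val h2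
      exact ⟨e.symm ⟨⟨y, hy⟩, h1⟩, by simp [j]⟩
    · intro b hb
      have h1 : b.image e ∈ der hexD p0D := by
        rw [← he]
        exact ⟨b, hb, rfl⟩
      obtain ⟨c, ⟨o, ho, h6, rfl⟩, hpc, h7⟩ := h1
      refine ⟨o, ho, h6, ?_⟩
      have hpo : pt 23 ∈ o := (Finset.mem_subtype.1 hpc)
      ext y
      simp only [Finset.mem_inter, Finset.mem_union, Finset.mem_singleton, Finset.mem_image]
      constructor
      · rintro ⟨hyo, hyD⟩
        by_cases hy : y = pt 23
        · exact Or.inr hy
        · left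
          have h8 : (⟨y, hyD⟩ : {p : GolayPt // p ∈ D0}) ≠ p0D := fun h => hy (congrArg Subtype.val h)
          have h9 : (⟨⟨y, hyD⟩, h8⟩ : {a : {p : GolayPt // p ∈ D0} // a ≠ p0D}) ∈ b.image e := by
            rw [h7]
            exact Finset.mem_subtype.2 (Finset.mem_subtype.2 hyo)
          obtain ⟨x, hx, hxe⟩ := Finset.mem_image.1 h9
          exact ⟨x, hx, by simp [j, hxe]⟩
      · rintro (⟨x, hx, rfl⟩ | rfl)
        · have h9 : e x ∈ b.image e := Finset.mem_image_of_mem _ hx
          rw [h7] at h9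
          exact ⟨Finset.mem_subtype.1 (Finset.mem_subtype.1 h9), (e x).1.2⟩
        · exact ⟨hpo, pt23_D0⟩
  refine hj.autData hB (by simp) M11B_iff (exists_fixer_11 hα hB) ?_ ?_
  · intro x y
    let cons (z : Fin 4 ↪ α) : Fin 5 → GolayPt := Fin.cons (pt 23) (fun i => j (z i))
    have hcons : ∀ z : Fin 4 ↪ α, Function.Injective (cons z) := by
      intro z a b hab
      induction a using Fin.cases with
      | zero =>
        induction b using Fin.cases with
        | zero => rfl
        | succ b => exact absurd (show pt 23 = j (z b) from hab).symm (hne _)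
      | succ a =>
        induction b using Fin.cases with
        | zero => exact absurd (show j (z a) = pt 23 from hab) (hne _)
        | succ b =>
          have : j (z a) = j (z b) := hab
          rw [z.injective (hj.inj this)]
    have hconsD : ∀ z : Fin 4 ↪ α, ∀ i, cons z i ∈ D0 := by
      intro z i
      induction i using Fin.cases with
      | zero => exact pt23_D0
      | succ i => exact hj.memD _
    obtain ⟨g, hg, hgx⟩ := exists_map12 (cons x) (cons y) (hcons x) (hcons y) (hconsD x) (hconsD y)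
    refine ⟨g, (M11B_iff g).2 ⟨hg, ?_⟩, fun i => hgx i.succ⟩
    intro a ha
    rw [Finset.mem_singleton] at ha
    rw [ha]
    exact hgx 0
  · intro x g hg hgx
    obtain ⟨hg1, hg2⟩ := (M11B_iff g).1 hg
    let p : Fin 5 → GolayPt := Fin.cons (pt 23) (fun i => j (x i))
    have hp : Function.Injective p := by
      intro a b hab
      induction a using Fin.cases with
      | zero =>
        induction b using Fin.cases with
        | zero => rfl
        | succ b => exact absurd (show pt 23 = j (x b) from hab).symm (hne _)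
      | succ a =>
        induction b using Fin.cases with
        | zero => exact absurd (show j (x a) = pt 23 from hab) (hne _)
        | succ b =>
          have : j (x a) = j (x b) := hab
          rw [x.injective (hj.inj this)]
    have hpD : ∀ i, p i ∈ D0 := by
      intro i
      induction i using Fin.cases with
      | zero => exact pt23_D0
      | succ i => exact hj.memD _
    refine eq_of_agree_five p hp hpD hg1 (M12B.one_mem) ?_
    intro i
    induction i using Fin.cases with
    | zero => exact hg2 _ (Finset.mem_singleton_self _)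
    | succ i => exact hgx i

end

end Cfsg.Agent.Lib.SteinerU
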