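/-
The point-block graph of the design on twenty-two points: its automorphisms.
-/
import Cfsg.Agent.Lib.SteinerU.Two
import Cfsg.Agent.Lib.SteinerU.S11
import Cfsg.Agent.Lib.Golay.SRG
import Cfsg.Agent.Lib.LeechP.Simp

set_option autoImplicit false

universe u

namespace Cfsg.Agent.Lib.SteinerU

open Cfsg Cfsg.Agent.Lib.Golay Cfsg.Agent.Lib.Golay.Steiner Cfsg.Agent.Lib.LeechP Cfsg.Agent.Lib.M24 MulAction
open scoped Pointwise

variable {α : Type u} [Fintype α] [DecidableEq α] {B : Set (Finset α)}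

noncomputable local instance hsFintypeB : Fintype ↥B := Fintype.ofFinite _

/-- The permutations of the vertices preserving adjacency. -/
def autV (B : Set (Finset α)) : Subgroup (Equiv.Perm (Option (α ⊕ B))) where
  carrier := {p | ∀ u v, (pointBlockGraph B).Adj (p u) (p v) ↔ (pointBlockGraph B).Adj u v}
  mul_mem' := by
    intro a b ha hb u v
    rw [Equiv.Perm.mul_apply, Equiv.Perm.mul_apply, ha, hb]
  one_mem' := fun _ _ => Iff.rfl
  inv_mem' := by
    intro a ha u v
    have := ha (a⁻¹ u) (a⁻¹ v)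
    rw [show a (a⁻¹ u) = u from a.apply_symm_apply u, show a (a⁻¹ v) = v from a.apply_symm_apply v] at this
    exact this.symm

theorem mem_autV {p : Equiv.Perm (Option (α ⊕ B))} :
    p ∈ autV B ↔ ∀ u v, (pointBlockGraph B).Adj (p u) (p v) ↔ (pointBlockGraph B).Adj u v := Iff.rfl

/-- Automorphisms of the graph as permutations. -/
def autEquiv (B : Set (Finset α)) : (pointBlockGraph B ≃g pointBlockGraph B) ≃* ↥(autV B) where
  toFun φ := ⟨φ.toEquiv, fun _ _ => φ.map_rel_iff⟩
  invFun p := ⟨p.1, fun {u v} => p.2 u v⟩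
  left_inv _ := rfl
  right_inv _ := rfl
  map_mul' _ _ := rfl

/-- The image of a block. -/
def blockMap (σ : ↥(setSystemAut B)) (b : ↥B) : ↥B := ⟨σ.1 • b.1, smul_mem_of_aut σ.2 b.2⟩

/-- The action of an automorphism of the design on the vertices. -/
def hatF (σ : ↥(setSystemAut B)) : Option (α ⊕ B) → Option (α ⊕ B)
  | none => none
  | some (Sum.inl a) => some (Sum.inl (σ.1 a))
  | some (Sum.inr b) => some (Sum.inr (blockMap σ b))

theorem hatF_mul (σ τ : ↥(setSystemAut B)) (v : Option (α ⊕ B)) : hatF (σ * τ) v = hatF σ (hatF τ v) := by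
  rcases v with _ | a | b
  · rfl
  · rfl
  · simp only [hatF]
    congr 2
    apply Subtype.ext
    exact mul_smul σ.1 τ.1 b.1

theorem hatF_one (v : Option (α ⊕ B)) : hatF (1 : ↥(setSystemAut B)) v = v := by
  rcases v with _ | a | b
  · rfl
  · rfl
  · simp only [hatF]
    congr 2
    apply Subtype.ext
    exact one_smul _ b.1

/-- The homomorphism. -/
def hat (B : Set (Finset α)) : ↥(setSystemAut B) →* Equiv.Perm (Option (α ⊕ B)) :=
  MonoidHom.mk' (fun σ =>
    { toFun := hatF σ
      invFun := hatF σ⁻¹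
      left_inv := fun v => by rw [← hatF_mul, inv_mul_cancel, hatF_one]
      right_inv := fun v => by rw [← hatF_mul, mul_inv_cancel, hatF_one] })
    (fun σ τ => Equiv.ext fun v => hatF_mul σ τ v)

@[simp] theorem hat_none (σ : ↥(setSystemAut B)) : hat B σ none = none := rfl
@[simp] theorem hat_inl (σ : ↥(setSystemAut B)) (a : α) :
    hat B σ (some (Sum.inl a)) = some (Sum.inl (σ.1 a)) := rfl
@[simp] theorem hat_inr (σ : ↥(setSystemAut B)) (b : ↥B) :
    hat B σ (some (Sum.inr b)) = some (Sum.inr (blockMap σ b)) := rfl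

theorem hat_inj : Function.Injective (hat B) := by
  intro σ τ h
  apply Subtype.ext
  apply Equiv.ext
  intro a
  have := congrArg (fun p : Equiv.Perm (Option (α ⊕ B)) => p (some (Sum.inl a))) h
  simp only [hat_inl, Option.some.injEq, Sum.inl.injEq] at this
  exact this

theorem mem_smul_iff' (σ : Equiv.Perm α) (a : α) (b : Finset α) : σ a ∈ σ • b ↔ a ∈ b := by
  rw [← Equiv.Perm.smul_def, Finset.smul_mem_smul_finset_iff]

theorem hat_mem (σ : ↥(setSystemAut B)) : hat B σ ∈ autV B := by
  intro u v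
  rcases u with _ | a | b <;> rcases v with _ | a' | b'
  · exact Iff.rfl
  · simp only [hat_none, hat_inl]
    exact iff_of_true (pbg_adj_none_inl _) (pbg_adj_none_inl _)
  · simp only [hat_none, hat_inr]
    exact iff_of_false (pbg_adj_none_inr _) (pbg_adj_none_inr _)
  · simp only [hat_none, hat_inl]
    exact iff_of_true (pbg_adj_inl_none _) (pbg_adj_inl_none _)
  · simp only [hat_inl]
    exact iff_of_false (pbg_adj_inl_inl _ _) (pbg_adj_inl_inl _ _)
  · simp only [hat_inl, hat_inr]
    rw [pbg_adj_inl_inr, pbg_adj_inl_inr]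
    exact mem_smul_iff' σ.1 a b'.1
  · simp only [hat_none, hat_inr]
    exact iff_of_false (pbg_adj_inr_none _) (pbg_adj_inr_none _)
  · simp only [hat_inl, hat_inr]
    rw [pbg_adj_comm, pbg_adj_inl_inr, pbg_adj_comm, pbg_adj_inl_inr]
    exact mem_smul_iff' σ.1 a' b.1
  · simp only [hat_inr]
    rw [pbg_adj_inr_inr, pbg_adj_inr_inr]
    have h1 : blockMap σ b ≠ blockMap σ b' ↔ b ≠ b' := by
      rw [not_iff_not]
      constructor
      · intro h
        have h2 : σ.1 • b.1 = σ.1 • b'.1 := congrArg Subtype.val h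
        exact Subtype.ext (MulAction.injective σ.1 h2)
      · intro h
        rw [h]
    have h2 : Disjoint (blockMap σ b).1 (blockMap σ b').1 ↔ Disjoint b.1 b'.1 := by
      show Disjoint (σ.1 • b.1) (σ.1 • b'.1) ↔ _
      rw [Finset.disjoint_left, Finset.disjoint_left]
      constructor
      · intro h x hx hx'
        exact h (Finset.smul_mem_smul_finset hx) (Finset.smul_mem_smul_finset hx')
      · intro h x hx hx'
        obtain ⟨y, hy, rfl⟩ := Finset.mem_smul_finset.1 hx
        obtain ⟨y', hy', e⟩ := Finset.mem_smul_finset.1 hx'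
        have e2 : y' = y := MulAction.injective σ.1 e
        subst e2
        exact h hy hy'
    rw [h1, h2]

/-- A permutation in the group fixing the extra vertex comes from the design. -/
theorem hat_surj {p : Equiv.Perm (Option (α ⊕ B))} (hp : p ∈ autV B) (h0 : p none = none) :
    ∃ σ, hat B σ = p := by
  have hinv0 : p⁻¹ none = none := by
    rw [Equiv.Perm.inv_eq_iff_eq]
    exact h0.symm
  have key : ∀ {q : Equiv.Perm (Option (α ⊕ B))}, q ∈ autV B → q none = none → ∀ a : α, ∃ a', q (some (Sum.inl a)) = some (Sum.inl a') := by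
    intro q hq hq0 a
    have h1 := (hq none (some (Sum.inl a))).2 (pbg_adj_none_inl a)
    rw [hq0] at h1
    rcases hv : q (some (Sum.inl a)) with _ | a' | b
    · rw [hv] at h1
      exact absurd h1 (SimpleGraph.irrefl _)
    · exact ⟨a', rfl⟩
    · rw [hv] at h1
      exact absurd h1 (pbg_adj_none_inr b)
  choose f hf using key hp h0
  choose g hg using key ((autV B).inv_mem hp) hinv0
  let σ0 : Equiv.Perm α :=
    { toFun := f
      invFun := g
      left_inv := fun a => by
        have h1 := hg (f a)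
        rw [← hf, show p⁻¹ (p (some (Sum.inl a))) = some (Sum.inl a) from p.symm_apply_apply _] at h1
        simpa using h1.symm
      right_inv := fun a => by
        have h1 := hf (g a)
        rw [← hg, show p (p⁻¹ (some (Sum.inl a))) = some (Sum.inl a) from p.apply_symm_apply _] at h1
        simpa using h1.symm }
  have hblock : ∀ b : ↥B, ∃ c : ↥B, p (some (Sum.inr b)) = some (Sum.inr c) := by
    intro b
    rcases hv : p (some (Sum.inr b)) with _ | a' | c
    · exfalso
      have : some (Sum.inr b) = p⁻¹ none := by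
        rw [← hv]
        simp
      rw [hinv0] at this
      simp at this
    · exfalso
      have : some (Sum.inr b) = p⁻¹ (some (Sum.inl a')) := by
        rw [← hv]
        simp
      rw [hg] at this
      simp at this
    · exact ⟨c, rfl⟩
  choose c hc using hblock
  have hmemb : ∀ (a : α) (b : ↥B), f a ∈ (c b).1 ↔ a ∈ b.1 := by
    intro a b
    have h1 := hp (some (Sum.inl a)) (some (Sum.inr b))
    rwa [hf, hc, pbg_adj_inl_inr, pbg_adj_inl_inr] at h1
  have hsm : ∀ b : ↥B, σ0 • b.1 = (c b).1 := by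
    intro b
    ext y
    rw [Finset.mem_smul_finset]
    constructor
    · rintro ⟨x, hx, rfl⟩
      exact (hmemb x b).2 hx
    · intro hy
      have e1 : f (g y) = y := σ0.right_inv y
      refine ⟨g y, ?_, e1⟩
      rw [← hmemb, e1]
      exact hy
  have hσ0 : σ0 ∈ setSystemAut B := by
    rw [mem_aut_iff_forall]
    intro b hb
    rw [hsm ⟨b, hb⟩]
    exact (c ⟨b, hb⟩).2
  refine ⟨⟨σ0, hσ0⟩, Equiv.ext fun v => ?_⟩
  rcases v with _ | a | b
  · exact h0.symm
  · exact (hf a).symm
  · rw [hat_inr, hc]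
    congr 2
    exact Subtype.ext (hsm b)

section main

variable {j : α → GolayPt}

/-- An element of the subgroup mapping one tuple to another. -/
theorem Emb.exists_map (h : Emb S2 B j) (hB : IsSteinerSystem 3 6 B) {n : ℕ} (hn : n ≤ 3)
    (x y : Fin n ↪ α) : ∃ σ : ↥(setSystemAut B), σ ∈ H0 h ∧ ∀ i, σ.1 (x i) = y i := by
  classical
  let u : Finset GolayPt := S2 ∪ Finset.univ.image (fun i => j (x i))
  have hu : u.card ≤ 5 := by
    show (S2 ∪ _).card ≤ 5
    have h1 := Finset.card_union_le S2 (Finset.univ.image (fun i => j (x i)))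
    have h2 : (Finset.univ.image (fun i => j (x i))).card ≤ n := by
      have := Finset.card_image_le (s := (Finset.univ : Finset (Fin n))) (f := fun i => j (x i))
      simpa using this
    rw [S2_card] at h1
    omega
  let f : GolayPt → GolayPt := fun z => if hz : ∃ i, j (x i) = z then j (y hz.choose) else z
  have hf1 : ∀ i, f (j (x i)) = j (y i) := by
    intro i
    have hz : ∃ i', j (x i') = j (x i) := ⟨i, rfl⟩
    have h3 : hz.choose = i := x.injective (h.inj hz.choose_spec)
    simp only [f, dif_pos hz, h3]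
  have hf2 : ∀ z ∈ S2, f z = z := by
    intro z hz
    have h3 : ¬ ∃ i, j (x i) = z := by
      rintro ⟨i, rfl⟩
      exact h.avoid _ hz
    simp only [f, dif_neg h3]
  have hinj : Set.InjOn f (u : Set GolayPt) := by
    intro a ha b hb hab
    have ha' := Finset.mem_coe.1 ha
    have hb' := Finset.mem_coe.1 hb
    simp only [u, Finset.mem_union, Finset.mem_image, Finset.mem_univ, true_and] at ha' hb'
    rcases ha' with ha' | ⟨i, rfl⟩ <;> rcases hb' with hb' | ⟨i', rfl⟩
    · rwa [hf2 _ ha', hf2 _ hb'] at hab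
    · rw [hf2 _ ha', hf1] at hab
      exact absurd (hab ▸ ha') (h.avoid _)
    · rw [hf2 _ hb', hf1] at hab
      exact absurd (hab ▸ hb') (h.avoid _)
    · rw [hf1, hf1] at hab
      rw [y.injective (h.inj hab)]
  obtain ⟨g, hg, hgf⟩ := exists_map_on hu f hinj
  obtain ⟨σ, hσ, rfl⟩ := h.exists_aut hB (by rw [S2_card]) hg (fun z hz => by
    rw [hgf z (Finset.mem_union_left _ hz), hf2 z hz])
  refine ⟨⟨σ, hσ⟩, hg, ?_⟩
  intro i
  apply h.inj
  show j (σ (x i)) = j (y i)
  rw [← h.phi_j, hgf _ (Finset.mem_union_right _ (Finset.mem_image_of_mem _ (Finset.mem_univ i))), hf1]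

theorem Emb.trans_pts (h : Emb S2 B j) (hB : IsSteinerSystem 3 6 B) (a a' : α) :
    ∃ σ : ↥(setSystemAut B), σ ∈ H0 h ∧ σ.1 a = a' := by
  let x : Fin 1 ↪ α := ⟨fun _ => a, fun _ _ _ => Subsingleton.elim _ _⟩
  let y : Fin 1 ↪ α := ⟨fun _ => a', fun _ _ _ => Subsingleton.elim _ _⟩
  obtain ⟨σ, h1, h2⟩ := h.exists_map hB (by norm_num) x y
  exact ⟨σ, h1, h2 0⟩

theorem Emb.trans_blocks (h : Emb S2 B j) (hB : IsSteinerSystem 3 6 B) (b b' : ↥B) :
    ∃ σ : ↥(setSystemAut B), σ ∈ H0 h ∧ blockMap σ b = b' := by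
  have key : ∀ c : ↥B, ∃ x : Fin 3 ↪ α, ∀ i, x i ∈ c.1 := by
    intro c
    obtain ⟨s, hs, hs3⟩ := Finset.exists_subset_card_eq (s := c.1) (n := 3) (by rw [hB.1 c.1 c.2]; norm_num)
    let e := s.equivFinOfCardEq hs3
    refine ⟨⟨fun i => (e.symm i).1, fun p q hpq => e.symm.injective (Subtype.ext hpq)⟩, fun i => hs (e.symm i).2⟩
  obtain ⟨x, hx⟩ := key b
  obtain ⟨y, hy⟩ := key b'
  obtain ⟨σ, h1, h2⟩ := h.exists_map hB (by norm_num) x y
  refine ⟨σ, h1, Subtype.ext ?_⟩
  show σ.1 • b.1 = b'.1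
  apply two_blocks_eq hB (smul_mem_of_aut σ.2 b.2) b'.2
  let t : Finset α := Finset.univ.image y
  have ht : t.card = 3 := by
    rw [Finset.card_image_of_injective _ y.injective]
    simp
  rw [← ht]
  apply Finset.card_le_card
  intro z hz
  obtain ⟨i, -, rfl⟩ := Finset.mem_image.1 hz
  refine Finset.mem_inter.2 ⟨?_, hy i⟩
  rw [← h2 i]
  exact Finset.smul_mem_smul_finset (hx i)

/-- The hypothesis of a move off the extra vertex. -/
def HasMove (B : Set (Finset α)) : Prop :=
  ∃ p ∈ autV B, ∃ a b, p none = some (Sum.inl a) ∧ p (some (Sum.inl a)) = some (Sum.inr b)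

/-- The group is transitive on the vertices. -/
theorem Emb.trans_V (h : Emb S2 B j) (hB : IsSteinerSystem 3 6 B) (hm : HasMove B)
    (v : Option (α ⊕ B)) : ∃ p ∈ autV B, p none = v := by
  obtain ⟨p, hp, a, b, h1, h2⟩ := hm
  rcases v with _ | a' | b'
  · exact ⟨1, (autV B).one_mem, rfl⟩
  · obtain ⟨σ, -, hσ⟩ := h.trans_pts hB a a'
    refine ⟨hat B σ * p, (autV B).mul_mem (hat_mem σ) hp, ?_⟩
    rw [Equiv.Perm.mul_apply, h1, hat_inl, hσ]
  · obtain ⟨σ, -, hσ⟩ := h.trans_blocks hB b b'
    refine ⟨hat B σ * (p * p), (autV B).mul_mem (hat_mem σ) ((autV B).mul_mem hp hp), ?_⟩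
    rw [Equiv.Perm.mul_apply, Equiv.Perm.mul_apply, h1, h2, hat_inr, hσ]

theorem card_vertices (hα : Fintype.card α = 22) (hB : IsSteinerSystem 3 6 B) :
    Nat.card (Option (α ⊕ B)) = 100 := by
  have h1 : Nat.card ↥B = 77 := by
    rw [Nat.card_coe_set_eq, ncard_eq_card_BF, lam0_3_6_22 hα hB]
  classical
  haveI : Fintype ↥B := Fintype.ofFinite _
  rw [Nat.card_eq_fintype_card, Fintype.card_option, Fintype.card_sum, hα]
  rw [Nat.card_eq_fintype_card] at h1
  rw [h1]

/-- The stabiliser of the extra vertex in the full group. -/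
noncomputable def stabEquiv (B : Set (Finset α)) :
    ↥(setSystemAut B) ≃* ↥(stabilizer ↥(autV B) (none : Option (α ⊕ B))) :=
  MulEquiv.ofBijective
    (MonoidHom.mk' (fun σ => ⟨⟨hat B σ, hat_mem σ⟩, rfl⟩) (fun σ τ => by
      apply Subtype.ext
      apply Subtype.ext
      exact map_mul (hat B) σ τ))
    ⟨fun σ τ h => hat_inj (congrArg (fun p => p.1.1) h), fun p => by
      obtain ⟨σ, hσ⟩ := hat_surj p.1.2 p.2
      exact ⟨σ, Subtype.ext (Subtype.ext hσ)⟩⟩

/-- The order of the full group. -/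
theorem card_autV (hα : Fintype.card α = 22) (hB : IsSteinerSystem 3 6 B) (hm : HasMove B) :
    Nat.card ↥(autV B) = 88704000 := by
  obtain ⟨j, h⟩ := exists_emb_22 hα hB
  have horb : orbit ↥(autV B) (none : Option (α ⊕ B)) = Set.univ := by
    ext v
    simp only [Set.mem_univ, iff_true]
    obtain ⟨p, hp, e⟩ := h.trans_V hB hm v
    exact ⟨⟨p, hp⟩, e⟩
  have h1 := index_stabilizer ↥(autV B) (none : Option (α ⊕ B))
  rw [horb, Set.ncard_univ, card_vertices hα hB] at h1
  have h2 := Subgroup.card_mul_index (stabilizer ↥(autV B) (none : Option (α ⊕ B)))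
  rw [h1, ← Nat.card_congr (stabEquiv B).toEquiv, aut_card h hB] at h2
  omega

end main

end Cfsg.Agent.Lib.SteinerU
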