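/-
A simplicity criterion for a group of degree one hundred with a simple point stabiliser.
-/
import Cfsg.Agent.Lib.LeechP.Simp

set_option autoImplicit false

namespace Cfsg.Agent.Lib.SteinerU

open Cfsg.Agent.Lib.LeechP MulAction
open scoped Pointwise

variable {G X : Type*} [Group G] [Finite G] [MulAction G X] [Finite X]

theorem arith_parts (I : Finset (Fin 2)) :
    (1 + ∑ i ∈ I, (![22, 77] : Fin 2 → ℕ) i) = 1 ∨ (1 + ∑ i ∈ I, (![22, 77] : Fin 2 → ℕ) i) = 23 ∨
      (1 + ∑ i ∈ I, (![22, 77] : Fin 2 → ℕ) i) = 78 ∨ (1 + ∑ i ∈ I, (![22, 77] : Fin 2 → ℕ) i) = 100 := by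
  revert I
  decide

theorem simple_rank3 [FaithfulSMul G X] (a : X) (htr : ∀ x : X, ∃ g : G, g • a = x)
    (hSt : IsSimpleGroup (stabilizer G a)) (hX : Nat.card X = 100) (P : Fin 2 → Set X)
    (hn0 : (P 0).ncard = 22) (hn1 : (P 1).ncard = 77) (hd : Disjoint (P 0) (P 1)) (hna : ∀ i, a ∉ P i)
    (hcov : ∀ x : X, x = a ∨ ∃ i, x ∈ P i)
    (hcl : ∀ i, ∀ x ∈ P i, ∀ y ∈ P i, ∃ g ∈ stabilizer G a, g • x = y) : IsSimpleGroup G := by
  -- invariant sets
  have hblock : ∀ Y : Set X, a ∈ Y → (∀ g ∈ stabilizer G a, ∀ x ∈ Y, g • x ∈ Y) →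
      Y.ncard = 1 ∨ Y.ncard = 23 ∨ Y.ncard = 78 ∨ Y.ncard = 100 := by
    intro Y haY hY
    have hn : ∀ i, (P i).ncard = (![22, 77] : Fin 2 → ℕ) i := by
      intro i
      fin_cases i
      · exact hn0
      · exact hn1
    have hd' : ∀ i j, i ≠ j → Disjoint (P i) (P j) := by
      intro i j hij
      fin_cases i <;> fin_cases j
      · exact absurd rfl hij
      · exact hd
      · exact hd.symm
      · exact absurd rfl hij
    obtain ⟨I, -, e2⟩ := block_of_parts (Ω := Set.univ) P ![22, 77] hn (fun i => Set.toFinite _) hd' hna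
      (fun x _ => hcov x) Y haY (Set.subset_univ _) (by
        intro i x hx y hy hxY
        obtain ⟨g, hg, rfl⟩ := hcl i x hx y hy
        exact hY g hg x hxY)
    rw [e2]
    exact arith_parts I
  have horbG : (orbit G a).ncard = 100 := by
    have : orbit G a = Set.univ := by
      ext x
      simp only [Set.mem_univ, iff_true]
      obtain ⟨g, hg⟩ := htr x
      exact ⟨g, hg⟩
    rw [this, Set.ncard_univ, hX]
  haveI : Nontrivial G := by
    obtain ⟨⟨u, hu⟩, ⟨v, hv⟩, huv⟩ := hSt.toNontrivial.exists_pair_ne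
    exact ⟨⟨u, v, fun e => huv (Subtype.ext e)⟩⟩
  refine ⟨fun N hN => ?_⟩
  have hinv : ∀ g ∈ stabilizer G a, ∀ x ∈ orbit ↥N a, g • x ∈ orbit ↥N a := fun g hg x hx =>
    orbit_normal_inv N (mem_stabilizer_iff.1 hg) hx
  have h1 := hblock (orbit ↥N a) (mem_orbit_self a) hinv
  have h2 : (orbit ↥N a).ncard ∣ 100 := by
    rw [← horbG]
    exact orbit_normal_dvd N a
  have h3 : (orbit ↥N a).ncard = 1 ∨ (orbit ↥N a).ncard = 100 := by
    rcases h1 with h | h | h | h
    · exact Or.inl h
    · rw [h] at h2; exact absurd h2 (by decide)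
    · rw [h] at h2; exact absurd h2 (by decide)
    · exact Or.inr h
  rcases h3 with h3 | h3
  · left
    -- the normal subgroup fixes the point, hence everything
    have hfix : ∀ n ∈ N, n • a = a := by
      intro n hn
      obtain ⟨y, hy⟩ := Set.ncard_eq_one.1 h3
      have h4 : a ∈ orbit ↥N a := mem_orbit_self a
      have h5 : n • a ∈ orbit ↥N a := ⟨⟨n, hn⟩, rfl⟩
      rw [hy] at h4 h5
      rw [Set.mem_singleton_iff] at h4 h5
      exact h5.trans h4.symm
    rw [eq_bot_iff]
    intro n hn
    rw [Subgroup.mem_bot]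
    apply eq_of_smul_eq_smul (α := X)
    intro x
    obtain ⟨g, rfl⟩ := htr x
    have h4 : g⁻¹ * n * g ∈ N := by
      have := hN.conj_mem n hn g⁻¹
      simpa using this
    have h5 := hfix _ h4
    rw [one_smul, ← mul_smul]
    have h6 : n * g = g * (g⁻¹ * n * g) := by group
    rw [h6, mul_smul, h5]
  · right
    have hall : orbit ↥N a = Set.univ := by
      exact Set.eq_of_subset_of_ncard_le (Set.subset_univ _) (by rw [Set.ncard_univ, hX, h3]) (Set.toFinite _)
    have hN' : (N.subgroupOf (stabilizer G a)).Normal := by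
      constructor
      intro n hn g
      rw [Subgroup.mem_subgroupOf] at hn ⊢
      exact hN.conj_mem _ hn g.1
    rcases hN'.eq_bot_or_eq_top with hbot | htop
    · exfalso
      -- the normal subgroup is regular
      have hfree : ∀ n ∈ N, n • a = a → n = 1 := by
        intro n hn hna'
        have : (⟨n, mem_stabilizer_iff.2 hna'⟩ : stabilizer G a) ∈ N.subgroupOf (stabilizer G a) := hn
        rw [hbot, Subgroup.mem_bot] at this
        exact congrArg Subtype.val this
      have hstab : stabilizer ↥N a = ⊥ := by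
        rw [eq_bot_iff]
        intro n hn
        rw [Subgroup.mem_bot]
        exact Subtype.ext (hfree n.1 n.2 (mem_stabilizer_iff.1 hn))
      have hcN : Nat.card ↥N = 100 := by
        have h4 := index_stabilizer ↥N a
        rw [hstab, Subgroup.index_bot, h3] at h4
        exact h4
      have : Fact (Nat.Prime 5) := ⟨by norm_num⟩
      obtain ⟨S⟩ : Nonempty (Sylow 5 ↥N) := inferInstance
      obtain ⟨k, hk⟩ := IsPGroup.iff_card.1 S.isPGroup'
      have hcm := Subgroup.card_mul_index (S : Subgroup ↥N)
      have hni : ¬ 5 ∣ (S : Subgroup ↥N).index := S.not_dvd_index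
      have hidx : (S : Subgroup ↥N).index = 4 ∧ Nat.card (S : Subgroup ↥N) = 25 := by
        rw [hk, hcN] at hcm
        rw [hk]
        have hk3 : k < 3 := by
          by_contra hge
          have h5 : (5 : ℕ) ^ 3 ∣ 5 ^ k := pow_dvd_pow 5 (by omega)
          have h6 : (5 : ℕ) ^ k ∣ 100 := ⟨_, hcm.symm⟩
          have h7 := h5.trans h6
          revert h7
          decide
        interval_cases k
        · exfalso
          apply hni
          have : (S : Subgroup ↥N).index = 100 := by simpa using hcm
          rw [this]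
          decide
        · exfalso
          apply hni
          have : (S : Subgroup ↥N).index = 20 := by omega
          rw [this]
          decide
        · exact ⟨by omega, by norm_num⟩
      have hsyl : Nat.card (Sylow 5 ↥N) = 1 := by
        have h5 : Nat.card (Sylow 5 ↥N) ∣ 4 := by
          have := S.card_dvd_index
          rwa [hidx.1] at this
        have h6 := card_sylow_modEq_one 5 ↥N
        have h7 : Nat.card (Sylow 5 ↥N) ≤ 4 := Nat.le_of_dvd (by norm_num) h5
        unfold Nat.ModEq at h6
        interval_cases (Nat.card (Sylow 5 ↥N)) <;> simp_all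
      have hsub : Subsingleton (Sylow 5 ↥N) := (Nat.card_eq_one_iff_unique.1 hsyl).1
      -- the orbit of the Sylow subgroup
      have hinv5 : ∀ g ∈ stabilizer G a, ∀ x ∈ orbit ↥(S : Subgroup ↥N) a, g • x ∈ orbit ↥(S : Subgroup ↥N) a := by
        intro g hg x hx
        obtain ⟨p, rfl⟩ := hx
        let c : MulAut ↥N := MulAut.conjNormal g
        have h5 : c • S = S := Subsingleton.elim _ _
        have h6 : c • p.1 ∈ ((c • S : Sylow 5 ↥N) : Subgroup ↥N) := by
          rw [Sylow.pointwise_smul_def]
          exact Subgroup.smul_mem_pointwise_smul _ _ _ p.2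
        rw [h5] at h6
        refine ⟨⟨_, h6⟩, ?_⟩
        show ((c • p.1 : ↥N) : G) • a = g • ((p.1 : ↥N) : G) • a
        have h7 : ((c • p.1 : ↥N) : G) = g * (p.1 : ↥N) * g⁻¹ := rfl
        rw [h7, mul_smul, mul_smul, inv_smul_eq_iff.2 (mem_stabilizer_iff.1 hg).symm]
      have h8 := hblock _ (mem_orbit_self a) hinv5
      have h9 : (orbit ↥(S : Subgroup ↥N) a).ncard = 25 := by
        have h4 := index_stabilizer ↥(S : Subgroup ↥N) a
        have h5 : stabilizer ↥(S : Subgroup ↥N) a = ⊥ := by
          rw [eq_bot_iff]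
          intro n hn
          rw [Subgroup.mem_bot]
          apply Subtype.ext
          apply Subtype.ext
          exact hfree _ n.1.2 (mem_stabilizer_iff.1 hn)
        rw [h5, Subgroup.index_bot, hidx.2] at h4
        exact h4.symm
      omega
    · -- the stabiliser lies in the normal subgroup
      rw [eq_top_iff]
      intro g _
      have h4 : g • a ∈ orbit ↥N a := by
        rw [hall]
        exact Set.mem_univ _
      obtain ⟨n, hn⟩ := h4
      have h5 : n.1⁻¹ * g ∈ stabilizer G a := by
        rw [mem_stabilizer_iff, mul_smul, inv_smul_eq_iff]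
        exact hn.symm
      have h6 : (⟨_, h5⟩ : stabilizer G a) ∈ N.subgroupOf (stabilizer G a) := by
        rw [htop]
        exact Subgroup.mem_top _
      have h7 := N.mul_mem n.2 h6
      simpa using h7

end Cfsg.Agent.Lib.SteinerU
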