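/-
The even automorphisms of the point-block graph of the design on twenty-two points.
-/
import Cfsg.Agent.Lib.SteinerU.HsGraph
import Cfsg.Agent.Lib.SteinerU.Rank3

set_option autoImplicit false

universe u v w

namespace Cfsg.Agent.Lib.SteinerU

open Cfsg Cfsg.Agent.Lib.Golay Cfsg.Agent.Lib.Golay.Steiner Cfsg.Agent.Lib.LeechP Cfsg.Agent.Lib.M24 MulAction
open scoped Pointwise

variable {α : Type u} [Fintype α] [DecidableEq α] {B : Set (Finset α)}

noncomputable local instance hsFintypeC {γ : Type w} [Fintype γ] {C : Set (Finset γ)} : Fintype ↥C :=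
  Fintype.ofFinite _

/-- The sign of a permutation of the vertices. -/
noncomputable def sgnV (B : Set (Finset α)) : Equiv.Perm (Option (α ⊕ B)) →* ℤˣ :=
  @Equiv.Perm.sign _ (Classical.decEq _) (Fintype.ofFinite _)

/-- The even automorphisms. -/
noncomputable def HP (B : Set (Finset α)) : Subgroup (Equiv.Perm (Option (α ⊕ B))) :=
  autV B ⊓ (sgnV B).ker

theorem mem_HP {p : Equiv.Perm (Option (α ⊕ B))} : p ∈ HP B ↔ p ∈ autV B ∧ sgnV B p = 1 := by
  rw [HP, Subgroup.mem_inf, MonoidHom.mem_ker]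

/-- The hypothesis of an odd automorphism of the design. -/
def HasOdd (B : Set (Finset α)) : Prop := ∃ t : ↥(setSystemAut B), sgnV B (hat B t) = -1

section

variable {j : α → GolayPt} (h : Emb S2 B j) (hB : IsSteinerSystem 3 6 B)

include h hB

theorem sgn_H0 (σ : ↥(setSystemAut B)) (hσ : σ ∈ H0 h) : sgnV B (hat B σ) = 1 := by
  obtain ⟨hs, hc⟩ := H0_M22 h hB
  haveI := hs
  let χ : ↥(H0 h) →* ℤˣ := (sgnV B).comp ((hat B).comp (H0 h).subtype)
  have h1 : χ.ker = ⊥ ∨ χ.ker = ⊤ := IsSimpleGroup.eq_bot_or_eq_top_of_normal _ inferInstance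
  rcases h1 with h1 | h1
  · exfalso
    have hinj : Function.Injective χ := (MonoidHom.ker_eq_bot_iff _).1 h1
    have h2 := Nat.card_le_card_of_injective χ hinj
    rw [hc, Nat.card_eq_fintype_card (α := ℤˣ), Fintype.card_units_int] at h2
    omega
  · have h2 : (⟨σ, hσ⟩ : ↥(H0 h)) ∈ χ.ker := by
      rw [h1]
      trivial
    exact h2

theorem sgn_outer (hodd : HasOdd B) (σ : ↥(setSystemAut B)) (hσ : σ ∉ H0 h) :
    sgnV B (hat B σ) = -1 := by
  obtain ⟨t, ht⟩ := hodd
  have ht0 : t ∉ H0 h := fun hin => by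
    have h1 := sgn_H0 h hB t hin
    rw [ht] at h1
    exact absurd h1 (by decide)
  have h2 : t * σ ∈ H0 h :=
    (Subgroup.mul_mem_iff_of_index_two (H0_index h hB)).2 (iff_of_false ht0 hσ)
  have h3 := sgn_H0 h hB _ h2
  rw [map_mul, map_mul, ht] at h3
  rcases Int.units_eq_one_or (sgnV B (hat B σ)) with e | e
  · rw [e] at h3
    exact absurd h3 (by decide)
  · exact e

/-- The stabiliser of the extra vertex. -/
noncomputable def stabHP (hodd : HasOdd B) :
    ↥(H0 h) ≃* ↥(stabilizer ↥(HP B) (none : Option (α ⊕ B))) :=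
  MulEquiv.ofBijective
    (MonoidHom.mk' (fun σ => ⟨⟨hat B σ.1, mem_HP.2 ⟨hat_mem _, sgn_H0 h hB _ σ.2⟩⟩, rfl⟩)
      (fun σ τ => by
        apply Subtype.ext
        apply Subtype.ext
        exact map_mul (hat B) σ.1 τ.1))
    ⟨fun σ τ e => Subtype.ext (hat_inj (congrArg (fun p => p.1.1) e)), fun p => by
      obtain ⟨σ, hσ⟩ := hat_surj (mem_HP.1 p.1.2).1 p.2
      have hin : σ ∈ H0 h := by
        by_contra hout
        have h1 := sgn_outer h hB hodd σ hout
        rw [hσ, (mem_HP.1 p.1.2).2] at h1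
        exact absurd h1 (by decide)
      exact ⟨⟨σ, hin⟩, Subtype.ext (Subtype.ext hσ)⟩⟩

theorem HP_trans (hm : HasMove B) (hodd : HasOdd B) (v : Option (α ⊕ B)) :
    ∃ g : ↥(HP B), g • (none : Option (α ⊕ B)) = v := by
  obtain ⟨p, hp, e⟩ := h.trans_V hB hm v
  rcases Int.units_eq_one_or (sgnV B p) with s | s
  · exact ⟨⟨p, mem_HP.2 ⟨hp, s⟩⟩, e⟩
  · obtain ⟨t, ht⟩ := hodd
    refine ⟨⟨p * hat B t, mem_HP.2 ⟨(autV B).mul_mem hp (hat_mem t), ?_⟩⟩, ?_⟩
    · rw [map_mul, s, ht]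
      decide
    · show (p * hat B t) none = v
      rw [Equiv.Perm.mul_apply, hat_none, e]

theorem card_HP (hα : Fintype.card α = 22) (hm : HasMove B) (hodd : HasOdd B) :
    Nat.card ↥(HP B) = 44352000 := by
  have horb : orbit ↥(HP B) (none : Option (α ⊕ B)) = Set.univ := by
    ext v
    simp only [Set.mem_univ, iff_true]
    obtain ⟨g, hg⟩ := HP_trans h hB hm hodd v
    exact ⟨g, hg⟩
  have h1 := index_stabilizer ↥(HP B) (none : Option (α ⊕ B))
  rw [horb, Set.ncard_univ, card_vertices hα hB] at h1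
  have h2 := Subgroup.card_mul_index (stabilizer ↥(HP B) (none : Option (α ⊕ B)))
  rw [h1, ← Nat.card_congr (stabHP h hB hodd).toEquiv, (H0_M22 h hB).2] at h2
  omega

theorem simple_HP (hα : Fintype.card α = 22) (hm : HasMove B) (hodd : HasOdd B) :
    IsSimpleGroup ↥(HP B) := by
  haveI := (H0_M22 h hB).1
  have hB77 : Nat.card ↥B = 77 := by
    rw [Nat.card_coe_set_eq, ncard_eq_card_BF, lam0_3_6_22 hα hB]
  refine simple_rank3 (none : Option (α ⊕ B)) (HP_trans h hB hm hodd)
    ((stabHP h hB hodd).symm.isSimpleGroup) (card_vertices hα hB)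
    ![{v | ∃ a, v = some (Sum.inl a)}, {v | ∃ b, v = some (Sum.inr b)}] ?_ ?_ ?_ ?_ ?_ ?_
  · show ({v | ∃ a, v = some (Sum.inl a)} : Set (Option (α ⊕ B))).ncard = 22
    have e : ({v | ∃ a, v = some (Sum.inl a)} : Set (Option (α ⊕ B)))
        = (fun a => some (Sum.inl a)) '' (Set.univ : Set α) := by
      ext v
      simp only [Set.mem_setOf_eq, Set.image_univ, Set.mem_range, eq_comm]
    rw [e, Set.ncard_image_of_injective _ (fun _ _ h => by simpa using h), Set.ncard_univ,
      Nat.card_eq_fintype_card, hα]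
  · show ({v | ∃ b, v = some (Sum.inr b)} : Set (Option (α ⊕ B))).ncard = 77
    have e : ({v | ∃ b, v = some (Sum.inr b)} : Set (Option (α ⊕ B)))
        = (fun b => some (Sum.inr b)) '' (Set.univ : Set ↥B) := by
      ext v
      simp only [Set.mem_setOf_eq, Set.image_univ, Set.mem_range, eq_comm]
    rw [e, Set.ncard_image_of_injective _ (fun _ _ h => by simpa using h), Set.ncard_univ, hB77]
  · rw [Set.disjoint_left]
    rintro _ ⟨a, rfl⟩ ⟨b, hb⟩
    simp at hb
  · intro i
    fin_cases i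
    · rintro ⟨a, ha⟩
      simp at ha
    · rintro ⟨a, ha⟩
      simp at ha
  · intro x
    rcases x with _ | a | b
    · exact Or.inl rfl
    · exact Or.inr ⟨0, a, rfl⟩
    · exact Or.inr ⟨1, b, rfl⟩
  · have hσ : ∀ σ : ↥(setSystemAut B), σ ∈ H0 h → ∃ g : ↥(HP B),
        g ∈ stabilizer ↥(HP B) (none : Option (α ⊕ B)) ∧ g.1 = hat B σ := by
      intro σ hs
      exact ⟨⟨hat B σ, mem_HP.2 ⟨hat_mem _, sgn_H0 h hB _ hs⟩⟩, rfl, rfl⟩
    intro i
    fin_cases i
    · rintro _ ⟨a, rfl⟩ _ ⟨a', rfl⟩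
      obtain ⟨σ, hs, hσa⟩ := h.trans_pts hB a a'
      obtain ⟨g, hg, hgs⟩ := hσ σ hs
      refine ⟨g, hg, ?_⟩
      show g.1 _ = _
      rw [hgs, hat_inl, hσa]
    · rintro _ ⟨b, rfl⟩ _ ⟨b', rfl⟩
      obtain ⟨σ, hs, hσb⟩ := h.trans_blocks hB b b'
      obtain ⟨g, hg, hgs⟩ := hσ σ hs
      refine ⟨g, hg, ?_⟩
      show g.1 _ = _
      rw [hgs, hat_inr, hσb]

end

/-- The subgroup of graph automorphisms. -/
noncomputable def HG (B : Set (Finset α)) :
    Subgroup (pointBlockGraph B ≃g pointBlockGraph B) :=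
  (HP B).comap ((autV B).subtype.comp (autEquiv B).toMonoidHom)

/-- The subgroup of graph automorphisms agrees with the subgroup of permutations. -/
noncomputable def HGequiv (B : Set (Finset α)) : ↥(HG B) ≃* ↥(HP B) where
  toFun x := ⟨((autEquiv B) x.1).1, x.2⟩
  invFun y := ⟨(autEquiv B).symm ⟨y.1, (mem_HP.1 y.2).1⟩, by
    show (((autEquiv B) ((autEquiv B).symm ⟨y.1, (mem_HP.1 y.2).1⟩)).1) ∈ HP B
    rw [MulEquiv.apply_symm_apply]
    exact y.2⟩
  left_inv x := by
    apply Subtype.ext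
    exact (autEquiv B).symm_apply_apply x.1
  right_inv y := by
    apply Subtype.ext
    show ((autEquiv B) ((autEquiv B).symm ⟨y.1, (mem_HP.1 y.2).1⟩)).1 = y.1
    rw [MulEquiv.apply_symm_apply]
  map_mul' x y := rfl

/-- Transfer along an isomorphism of designs. -/
theorem transfer_hs {β : Type v} [Fintype β] [DecidableEq β] {B' : Set (Finset β)}
    (e : α ≃ β) (he : Finset.image e '' B = B') : (HasMove B → HasMove B') ∧ (HasOdd B → HasOdd B') := by
  -- the map on blocks
  have hmem : ∀ b : ↥B, b.1.image e ∈ B' := fun b => he ▸ Set.mem_image_of_mem _ b.2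
  let fB : ↥B → ↥B' := fun b => ⟨b.1.image e, hmem b⟩
  have hinj : Function.Injective fB := by
    intro a b hab
    apply Subtype.ext
    have h1 : a.1.image e = b.1.image e := congrArg Subtype.val hab
    exact Finset.image_injective e.injective h1
  have hsur : Function.Surjective fB := by
    rintro ⟨c, hc⟩
    rw [← he] at hc
    obtain ⟨b, hb, rfl⟩ := hc
    exact ⟨⟨b, hb⟩, rfl⟩
  let eB : ↥B ≃ ↥B' := Equiv.ofBijective fB ⟨hinj, hsur⟩
  let ι : Option (α ⊕ B) ≃ Option (β ⊕ B') := Equiv.optionCongr (Equiv.sumCongr e eB)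
  have ι_none : ι none = none := rfl
  have ι_inl : ∀ a, ι (some (Sum.inl a)) = some (Sum.inl (e a)) := fun _ => rfl
  have ι_inr : ∀ b, ι (some (Sum.inr b)) = some (Sum.inr (eB b)) := fun _ => rfl
  have ι_none' : ι.symm none = none := by
    rw [Equiv.symm_apply_eq]
    exact ι_none.symm
  have hadj : ∀ x y, (pointBlockGraph B').Adj (ι x) (ι y) ↔ (pointBlockGraph B).Adj x y := by
    intro u v
    rcases u with _ | a | b <;> rcases v with _ | a' | b'
    · exact iff_of_false (SimpleGraph.irrefl _) (SimpleGraph.irrefl _)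
    · rw [ι_none, ι_inl]
      exact iff_of_true (pbg_adj_none_inl _) (pbg_adj_none_inl _)
    · rw [ι_none, ι_inr]
      exact iff_of_false (pbg_adj_none_inr _) (pbg_adj_none_inr _)
    · rw [ι_none, ι_inl]
      exact iff_of_true (pbg_adj_inl_none _) (pbg_adj_inl_none _)
    · rw [ι_inl, ι_inl]
      exact iff_of_false (pbg_adj_inl_inl _ _) (pbg_adj_inl_inl _ _)
    · rw [ι_inl, ι_inr, pbg_adj_inl_inr, pbg_adj_inl_inr]
      show e a ∈ b'.1.image e ↔ _
      exact e.injective.mem_finset_image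
    · rw [ι_none, ι_inr]
      exact iff_of_false (pbg_adj_inr_none _) (pbg_adj_inr_none _)
    · rw [ι_inl, ι_inr, pbg_adj_comm, pbg_adj_inl_inr, pbg_adj_comm, pbg_adj_inl_inr]
      show e a' ∈ b.1.image e ↔ _
      exact e.injective.mem_finset_image
    · rw [ι_inr, ι_inr, pbg_adj_inr_inr, pbg_adj_inr_inr]
      have h1 : eB b ≠ eB b' ↔ b ≠ b' := not_congr eB.injective.eq_iff
      have h2 : Disjoint (eB b).1 (eB b').1 ↔ Disjoint b.1 b'.1 := by
        show Disjoint (b.1.image e) (b'.1.image e) ↔ _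
        exact Finset.disjoint_image e.injective
      rw [h1, h2]
  have hq : ∀ p ∈ autV B, ι.permCongr p ∈ autV B' := by
    intro p hp x y
    rw [Equiv.permCongr_apply, Equiv.permCongr_apply, hadj, hp]
    have h1 := hadj (ι.symm x) (ι.symm y)
    rwa [ι.apply_symm_apply, ι.apply_symm_apply, Iff.comm] at h1
  constructor
  · rintro ⟨p, hp, a, b, h1, h2⟩
    refine ⟨ι.permCongr p, hq p hp, e a, eB b, ?_, ?_⟩
    · rw [Equiv.permCongr_apply, ι_none', h1, ι_inl]
    · rw [Equiv.permCongr_apply, ← ι_inl, ι.symm_apply_apply, h2, ι_inr]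
  · rintro ⟨t, ht⟩
    have h0 : ι.permCongr (hat B t) none = none := by
      rw [Equiv.permCongr_apply, ι_none', hat_none, ι_none]
    obtain ⟨σ, hσ⟩ := hat_surj (hq _ (hat_mem t)) h0
    refine ⟨σ, ?_⟩
    rw [hσ]
    have h1 : sgnV B' (ι.permCongr (hat B t)) = sgnV B (hat B t) := by
      letI : DecidableEq (Option (α ⊕ B)) := Classical.decEq _
      letI : Fintype (Option (α ⊕ B)) := Fintype.ofFinite _
      letI : DecidableEq (Option (β ⊕ B')) := Classical.decEq _
      letI : Fintype (Option (β ⊕ B')) := Fintype.ofFinite _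
      exact Equiv.Perm.sign_permCongr ι (hat B t)
    rw [h1, ht]

end Cfsg.Agent.Lib.SteinerU
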