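/-
A concrete model of the design on twenty-two points with two automorphisms of its graph.
-/
import Cfsg.Agent.Lib.SteinerU.HsSimple

set_option autoImplicit false
set_option maxRecDepth 100000

universe u

namespace Cfsg.Agent.Lib.SteinerU.HsM

open Cfsg Cfsg.Agent.Lib.Golay Cfsg.Agent.Lib.Golay.Steiner

noncomputable local instance hsFintypeD {γ : Type} [Fintype γ] {C : Set (Finset γ)} : Fintype ↥C :=
  Fintype.ofFinite _

/-- The blocks as masks. -/
def blkL : List ℕ := [1594, 4773, 12036, 16601, 21574, 41666, 55680, 58401, 67881, 73751, 78984, 102512, 115212, 134275, 137244, 143650, 150112, 164165, 197520, 267080, 278836, 288778, 297489, 329924, 361730, 402512, 426152, 479233, 525792, 538689, 541443, 559142, 565528, 609296, 680068, 693760, 720970, 787469, 790674, 860704, 1048974, 1053969, 1058992, 1084488, 1120770, 1139008, 1188361, 1228818, 1246244, 1310819, 1328768, 1355780, 1573460, 1593384, 1671297, 1968384, 2099538, 2105452, 2126352, 2131092, 2134027, 2164289, 2179234, 2245896,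 2336768, 2366496, 2367873, 2490886, 2624136, 2691332, 2752561, 2932800, 3164165, 3179296, 3281088, 3473432, 3679234]

/-- A block by its index. -/
def blk (k : ℕ) : ℕ := blkL.getD k 0

/-- The set of a mask. -/
def ofM (m : ℕ) : Finset (Fin 22) := Finset.univ.filter fun i => m.testBit i = true

theorem mem_ofM {m : ℕ} {i : Fin 22} : i ∈ ofM m ↔ m.testBit i = true := by simp [ofM]

/-- The block with a given index. -/
def blkF (k : Fin 77) : Finset (Fin 22) := ofM (blk k)

/-- The design. -/
def B0 : Set (Finset (Fin 22)) := Set.range blkF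

/-- Counting along a range. -/
def popN (f : ℕ → Bool) : ℕ → ℕ
  | 0 => 0
  | n + 1 => popN f n + if f n = true then 1 else 0

theorem card_filter_fin (f : ℕ → Bool) (n : ℕ) :
    (Finset.univ.filter fun i : Fin n => f i.1 = true).card = popN f n := by
  rw [Finset.card_filter, Fin.sum_univ_eq_sum_range (fun i => if f i = true then 1 else 0) n]
  induction n with
  | zero => rfl
  | succ n ih => rw [Finset.sum_range_succ, popN, ih]

/-- The number of bits. -/
def popM (m : ℕ) : ℕ := popN m.testBit 22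

theorem card_ofM (m : ℕ) : (ofM m).card = popM m := card_filter_fin _ _

theorem ofM_and (a b : ℕ) : ofM (a &&& b) = ofM a ∩ ofM b := by
  ext i
  simp only [mem_ofM, Nat.testBit_and, Finset.mem_inter, Bool.and_eq_true]

theorem blk_card_ok : (List.range 77).all (fun k => Nat.beq (popM (blk k)) 6) = true := by decide +kernel

theorem blkF_card (k : Fin 77) : (blkF k).card = 6 := by
  have h1 := List.all_eq_true.1 blk_card_ok k.1 (List.mem_range.2 k.2)
  rw [blkF, card_ofM]
  exact Nat.eq_of_beq_eq_true h1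

/-- Forcing a number. -/
noncomputable def fN {α : Type} (n : ℕ) (f : ℕ → α) : α := Nat.rec (f 0) (fun k _ => f (Nat.succ k)) n

theorem fN_eq {α : Type} (n : ℕ) (f : ℕ → α) : fN n f = f n := by
  cases n <;> rfl

theorem blk_inter_ok : (List.range 77).all (fun a => fN (blk a) fun ma => (List.range 77).all fun b =>
    Nat.beq a b || fN (ma &&& blk b) fun m => Nat.ble (popM m) 2) = true := by decide +kernel

theorem blkF_inter (a b : Fin 77) (hab : a ≠ b) : (blkF a ∩ blkF b).card ≤ 2 := by
  have h0 := List.all_eq_true.1 blk_inter_ok a.1 (List.mem_range.2 a.2)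
  rw [fN_eq] at h0
  have h1 := List.all_eq_true.1 h0 b.1 (List.mem_range.2 b.2)
  rw [fN_eq] at h1
  rw [blkF, blkF, ← ofM_and, card_ofM]
  rcases Bool.or_eq_true _ _ ▸ h1 with h2 | h2
  · exact absurd (Fin.ext (Nat.eq_of_beq_eq_true h2)) hab
  · exact Nat.le_of_ble_eq_true h2

/-- The union of masks. -/
def orAll : List ℕ → ℕ
  | [] => 0
  | m :: L => m ||| orAll L

theorem orAll_bit {L : List ℕ} {i : ℕ} (h : (orAll L).testBit i = true) :
    ∃ m ∈ L, m.testBit i = true := by
  induction L with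
  | nil => simp [orAll] at h
  | cons m L ih =>
    rw [orAll, Nat.testBit_or, Bool.or_eq_true] at h
    rcases h with h | h
    · exact ⟨m, List.mem_cons_self .., h⟩
    · obtain ⟨m', hm', h'⟩ := ih h
      exact ⟨m', List.mem_cons_of_mem _ hm', h'⟩

theorem blk_cover_ok : (List.range 22).all (fun x => (List.range 22).all fun y =>
    Nat.beq x y || Nat.beq (orAll (blkL.filter fun m => m.testBit x && m.testBit y)) (2 ^ 22 - 1)) = true := by
  decide +kernel

theorem blkL_len : blkL.length = 77 := rfl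

theorem blk_cover (x y z : Fin 22) (hxy : x ≠ y) :
    ∃ k : Fin 77, (blk k).testBit x = true ∧ (blk k).testBit y = true ∧ (blk k).testBit z = true := by
  have h1 := List.all_eq_true.1 (List.all_eq_true.1 blk_cover_ok x.1
    (List.mem_range.2 x.2)) y.1 (List.mem_range.2 y.2)
  rcases Bool.or_eq_true _ _ ▸ h1 with h2 | h2
  · exact absurd (Fin.ext (Nat.eq_of_beq_eq_true h2)) hxy
  · have h3 : (orAll (blkL.filter fun m => m.testBit x && m.testBit y)).testBit z = true := by
      rw [Nat.eq_of_beq_eq_true h2, Nat.testBit_two_pow_sub_one]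
      exact decide_eq_true z.2
    obtain ⟨m, hm, h4⟩ := orAll_bit h3
    obtain ⟨hm1, hm2⟩ := List.mem_filter.1 hm
    obtain ⟨i, hi, e⟩ := List.getElem_of_mem hm1
    have hk : blk i = m := by
      rw [blk, List.getD_eq_getElem _ _ hi, e]
    rw [Bool.and_eq_true] at hm2
    refine ⟨⟨i, by rw [← blkL_len]; exact hi⟩, ?_, ?_, ?_⟩
    · show (blk i).testBit x = true
      rw [hk]; exact hm2.1
    · show (blk i).testBit y = true
      rw [hk]; exact hm2.2
    · show (blk i).testBit z = true
      rw [hk]; exact h4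

theorem B0_steiner : IsSteinerSystem 3 6 B0 := by
  constructor
  · rintro _ ⟨k, rfl⟩
    exact blkF_card k
  · intro s hs
    obtain ⟨x, y, z, hxy, hxz, hyz, rfl⟩ := Finset.card_eq_three.1 hs
    obtain ⟨k, h1, h2, h3⟩ := blk_cover x y z hxy
    have hsub : ({x, y, z} : Finset (Fin 22)) ⊆ blkF k := by
      intro w hw
      simp only [Finset.mem_insert, Finset.mem_singleton] at hw
      rcases hw with rfl | rfl | rfl
      · exact mem_ofM.2 h1
      · exact mem_ofM.2 h2
      · exact mem_ofM.2 h3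
    refine ⟨blkF k, ⟨⟨k, rfl⟩, hsub⟩, ?_⟩
    rintro _ ⟨⟨l, rfl⟩, hl⟩
    by_contra hne
    have hkl : l ≠ k := fun e => hne (by rw [e])
    have h4 := Finset.card_le_card (Finset.subset_inter hl hsub)
    have h5 := blkF_inter l k hkl
    rw [hs] at h4
    omega

theorem blkF_inj : Function.Injective blkF := by
  intro a b hab
  by_contra hne
  have h1 := blkF_inter a b hne
  rw [hab, Finset.inter_self, blkF_card] at h1
  omega

/-- A block as an element of the design. -/
def bk (k : Fin 77) : ↥B0 := ⟨blkF k, k, rfl⟩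

theorem bk_inj : Function.Injective bk := fun _ _ h => blkF_inj (congrArg Subtype.val h)

/-- The vertices by number. -/
def vt (i : Fin 100) : Option (Fin 22 ⊕ ↥B0) :=
  if h0 : i.1 = 0 then none
  else if h1 : i.1 < 23 then some (Sum.inl ⟨i.1 - 1, by omega⟩)
  else some (Sum.inr (bk ⟨i.1 - 23, by omega⟩))

theorem vt_zero {i : Fin 100} (h : i.1 = 0) : vt i = none := by simp [vt, h]

theorem vt_pt {i : Fin 100} (h0 : i.1 ≠ 0) (h1 : i.1 < 23) :
    vt i = some (Sum.inl ⟨i.1 - 1, by omega⟩) := by simp [vt, h0, h1]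

theorem vt_bk {i : Fin 100} (h1 : ¬ i.1 < 23) : vt i = some (Sum.inr (bk ⟨i.1 - 23, by omega⟩)) := by
  have h0 : i.1 ≠ 0 := by omega
  simp [vt, h0, h1]

theorem vt_inj : Function.Injective vt := by
  intro u v h
  apply Fin.ext
  by_cases hu0 : u.1 = 0
  · by_cases hv0 : v.1 = 0
    · omega
    · by_cases hv1 : v.1 < 23
      · rw [vt_zero hu0, vt_pt hv0 hv1] at h
        simp at h
      · rw [vt_zero hu0, vt_bk hv1] at h
        simp at h
  · by_cases hu1 : u.1 < 23
    · by_cases hv0 : v.1 = 0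
      · rw [vt_pt hu0 hu1, vt_zero hv0] at h
        simp at h
      · by_cases hv1 : v.1 < 23
        · rw [vt_pt hu0 hu1, vt_pt hv0 hv1] at h
          simp only [Option.some.injEq, Sum.inl.injEq, Fin.mk.injEq] at h
          omega
        · rw [vt_pt hu0 hu1, vt_bk hv1] at h
          simp at h
    · by_cases hv0 : v.1 = 0
      · rw [vt_bk hu1, vt_zero hv0] at h
        simp at h
      · by_cases hv1 : v.1 < 23
        · rw [vt_bk hu1, vt_pt hv0 hv1] at h
          simp at h
        · rw [vt_bk hu1, vt_bk hv1] at h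
          simp only [Option.some.injEq, Sum.inr.injEq] at h
          have := bk_inj h
          simp only [Fin.mk.injEq] at this
          omega

theorem card_V0 : Nat.card (Option (Fin 22 ⊕ ↥B0)) = 100 :=
  card_vertices (by simp) B0_steiner

theorem vt_bij : Function.Bijective vt :=
  (Function.Injective.bijective_of_nat_card_le vt_inj (by rw [card_V0]; simp))

/-- The numbering of vertices. -/
noncomputable def vtE : Fin 100 ≃ Option (Fin 22 ⊕ ↥B0) := Equiv.ofBijective vt vt_bij

@[simp] theorem vtE_apply (i : Fin 100) : vtE i = vt i := rfl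

/-- Adjacency on numbers. -/
def adjN (u v : ℕ) : Bool :=
  if u = 0 then decide (v ≠ 0) && decide (v < 23)
  else if u < 23 then
    if v = 0 then true else if v < 23 then false else (blk (v - 23)).testBit (u - 1)
  else
    if v = 0 then false else if v < 23 then (blk (u - 23)).testBit (v - 1)
    else !(decide (u = v)) && decide ((blk (u - 23) &&& blk (v - 23)) = 0)

theorem disj_iff {a b : ℕ} (ha : a < 2 ^ 22) : Disjoint (ofM a) (ofM b) ↔ (a &&& b) = 0 := by
  constructor
  · intro h
    apply Nat.eq_of_testBit_eq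
    intro i
    rw [Nat.zero_testBit, Nat.testBit_and]
    by_cases hi : i < 22
    · have h1 : (⟨i, hi⟩ : Fin 22) ∈ ofM a → (⟨i, hi⟩ : Fin 22) ∉ ofM b :=
        fun h' => Finset.disjoint_left.1 h h'
      simp only [mem_ofM] at h1
      cases h2 : a.testBit i
      · rfl
      · simpa using h1 h2
    · have h3 : a.testBit i = false :=
        Nat.testBit_lt_two_pow (lt_of_lt_of_le ha (Nat.pow_le_pow_right (by norm_num) (by omega)))
      rw [h3]
      rfl
  · intro h
    rw [Finset.disjoint_left]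
    intro i hi hj
    have h1 : (a &&& b).testBit i = true := by
      rw [Nat.testBit_and, mem_ofM.1 hi, mem_ofM.1 hj]
      rfl
    rw [h] at h1
    simp at h1

theorem blk_lt : ∀ k : Fin 77, blk k < 2 ^ 22 := by decide +kernel

theorem adj_iff (u v : Fin 100) : (pointBlockGraph B0).Adj (vt u) (vt v) ↔ adjN u v = true := by
  by_cases hu0 : u.1 = 0
  · by_cases hv0 : v.1 = 0
    · rw [vt_zero hu0, vt_zero hv0]
      simp [adjN, hu0, hv0]
    · by_cases hv1 : v.1 < 23
      · rw [vt_zero hu0, vt_pt hv0 hv1]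
        simp [adjN, hu0, hv0, hv1, pbg_adj_none_inl]
      · rw [vt_zero hu0, vt_bk hv1]
        simp [adjN, hu0, hv0, hv1, pbg_adj_none_inr]
  · by_cases hu1 : u.1 < 23
    · by_cases hv0 : v.1 = 0
      · rw [vt_pt hu0 hu1, vt_zero hv0]
        simp [adjN, hu0, hu1, hv0, pbg_adj_inl_none]
      · by_cases hv1 : v.1 < 23
        · rw [vt_pt hu0 hu1, vt_pt hv0 hv1]
          simp [adjN, hu0, hu1, hv0, hv1, pbg_adj_inl_inl]
        · rw [vt_pt hu0 hu1, vt_bk hv1, pbg_adj_inl_inr]
          simp only [adjN, hu0, hu1, hv0, hv1, if_false, if_true]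
          exact mem_ofM
    · by_cases hv0 : v.1 = 0
      · rw [vt_bk hu1, vt_zero hv0]
        simp [adjN, hu0, hu1, hv0, pbg_adj_inr_none]
      · by_cases hv1 : v.1 < 23
        · rw [vt_bk hu1, vt_pt hv0 hv1, pbg_adj_comm, pbg_adj_inl_inr]
          simp only [adjN, hu0, hu1, hv0, hv1, if_false, if_true]
          exact mem_ofM
        · rw [vt_bk hu1, vt_bk hv1, pbg_adj_inr_inr]
          simp only [adjN, hu0, hu1, hv0, hv1, if_false, if_true]
          have h2 := disj_iff (a := blk (u.1 - 23)) (b := blk (v.1 - 23)) (blk_lt ⟨u.1 - 23, by omega⟩)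
          have h3 : bk ⟨u.1 - 23, by omega⟩ ≠ bk ⟨v.1 - 23, by omega⟩ ↔ u.1 ≠ v.1 := by
            rw [Ne, bk_inj.eq_iff, Fin.mk.injEq]
            omega
          rw [h3]
          have h4 : Disjoint (bk ⟨u.1 - 23, by omega⟩).1 (bk ⟨v.1 - 23, by omega⟩).1 ↔
              (blk (u.1 - 23) &&& blk (v.1 - 23)) = 0 := h2
          rw [h4]
          simp

/-- The images of the first automorphism. -/
def tauL : List ℕ := [1, 93, 53, 50, 60, 24, 72, 45, 83, 84, 26, 64, 69, 77, 89, 36, 52, 32, 30, 95, 31, 40, 0, 87, 25, 54, 68, 80, 71, 43, 35, 29, 66, 39, 86, 96, 46, 79, 37, 92, 63, 78, 38, 55, 34, 47, 51, 49, 59, 41, 42, 57, 27, 74, 82, 70, 94, 75, 90, 97, 28, 48, 58, 65, 44, 56, 85, 88, 76, 67, 98, 91, 33, 62, 23, 99, 81, 73, 61, 10, 19, 8, 13, 20, 5, 2, 11, 14, 21, 22, 15, 4, 17, 6, 12, 18, 7, 16, 3, 9]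

theorem tau_lt : ∀ i : Fin 100, tauL.getD i 0 < 100 := by decide +kernel

/-- The first automorphism as a map. -/
def tauF (i : Fin 100) : Fin 100 := ⟨tauL.getD i 0, tau_lt i⟩

theorem tauF_inj : Function.Injective tauF := by decide +kernel

/-- The first automorphism as a permutation. -/
noncomputable def tauE : Equiv.Perm (Fin 100) :=
  Equiv.ofBijective tauF ⟨tauF_inj, Finite.surjective_of_injective tauF_inj⟩

theorem tau_aut_ok : (List.range 100).all (fun u => (List.range 100).all fun v =>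
    adjN (tauL.getD u 0) (tauL.getD v 0) == adjN u v) = true := by decide +kernel

theorem tau_aut (u v : Fin 100) : adjN (tauL.getD u 0) (tauL.getD v 0) = adjN u v := by
  have h1 := List.all_eq_true.1 (List.all_eq_true.1 tau_aut_ok u.1 (List.mem_range.2 u.2)) v.1
    (List.mem_range.2 v.2)
  exact beq_iff_eq.1 h1

/-- The swaps of the second automorphism. -/
def tSw : List (Fin 100 × Fin 100) := [(1, 4), (4, 14), (14, 21), (21, 18), (18, 10), (2, 3), (3, 8), (8, 15), (15, 19), (19, 13), (13, 7), (7, 12), (12, 16), (16, 22), (22, 6), (6, 5), (9, 20), (20, 11), (11, 17), (23, 32), (32, 63), (63, 57), (57, 73), (73, 50), (50, 42), (42, 52), (52, 66), (66, 87), (87, 96), (96, 93), (24, 26), (26, 44), (44, 74), (74, 97), (97, 39), (39, 45), (45, 83), (83, 80), (80, 65), (65, 70), (70, 90), (25, 77), (77, 86), (86, 62), (62, 64), (64, 59), (27, 46), (46, 29), (29, 94), (94, 88), (88, 34), (34, 79), (79, 54), (54, 82), (82, 85), (85, 43), (43, 61), (28, 95), (95, 49), (49, 81), (81, 72), (72,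 37), (30, 98), (98, 38), (38, 75), (75, 36), (36, 35), (35, 89), (89, 76), (76, 48), (48, 67), (67, 40), (40, 91), (31, 55), (55, 99), (99, 71), (71, 41), (41, 53), (53, 60), (60, 33), (33, 68), (68, 78), (78, 58), (58, 84), (47, 92), (92, 51), (51, 56)]

/-- The second automorphism as a permutation. -/
def tE : Equiv.Perm (Fin 100) := (tSw.map fun p => Equiv.swap p.1 p.2).prod

/-- The images of the second automorphism. -/
def tL : List ℕ := [0, 4, 3, 8, 14, 2, 5, 12, 15, 20, 1, 17, 16, 7, 21, 19, 22, 9, 10, 13, 11, 18, 6, 32, 26, 77, 44, 46, 95, 94, 98, 55, 63, 68, 79, 89, 35, 28, 75, 45, 91, 53, 52, 61, 74, 83, 29, 92, 67, 81, 42, 56, 66, 60, 82, 99, 47, 73, 84, 25, 33, 27, 64, 57, 59, 70, 87, 40, 78, 69, 90, 41, 37, 50, 97, 36, 48, 86, 58, 54, 65, 72, 85, 80, 31, 43, 62, 96, 34, 76, 24, 30, 51, 23, 88, 49, 93, 39, 38, 71]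

/-- The product of swaps on numbers. -/
noncomputable def swF : List (Fin 100 × Fin 100) → ℕ → ℕ
  | [], i => i
  | p :: L, i => fN (swF L i) fun j => if j = p.1.1 then p.2.1 else if j = p.2.1 then p.1.1 else j

theorem swF_spec (L : List (Fin 100 × Fin 100)) (i : Fin 100) :
    (((L.map fun p => Equiv.swap p.1 p.2).prod) i).1 = swF L i.1 := by
  induction L with
  | nil => rfl
  | cons p L ih =>
    rw [List.map_cons, List.prod_cons, Equiv.Perm.mul_apply, Equiv.swap_apply_def, swF, fN_eq, ← ih]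
    simp only [Fin.ext_iff]
    split_ifs <;> rfl

theorem tE_ok : (List.range 100).all (fun i => Nat.beq (swF tSw i) (tL.getD i 0)) = true := by
  decide +kernel

theorem tE_apply (i : Fin 100) : (tE i).1 = tL.getD i 0 := by
  rw [tE, swF_spec]
  exact Nat.eq_of_beq_eq_true (List.all_eq_true.1 tE_ok i.1 (List.mem_range.2 i.2))

theorem t_aut_ok : (List.range 100).all (fun u => (List.range 100).all fun v =>
    adjN (tL.getD u 0) (tL.getD v 0) == adjN u v) = true := by decide +kernel

theorem t_aut (u v : Fin 100) : adjN (tL.getD u 0) (tL.getD v 0) = adjN u v := by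
  have h1 := List.all_eq_true.1 (List.all_eq_true.1 t_aut_ok u.1 (List.mem_range.2 u.2)) v.1
    (List.mem_range.2 v.2)
  exact beq_iff_eq.1 h1

theorem tSw_ok : tSw.all (fun p => !(decide (p.1 = p.2))) = true := by decide +kernel

theorem tSw_ne (p : Fin 100 × Fin 100) (hp : p ∈ tSw) : p.1 ≠ p.2 := by
  have h1 := List.all_eq_true.1 tSw_ok p hp
  simpa using h1

theorem sign_tE : Equiv.Perm.sign tE = -1 := by
  rw [tE, Equiv.Perm.sign_prod_list_swap]
  · rw [List.length_map]
    decide +kernel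
  · intro g hg
    obtain ⟨p, hp, rfl⟩ := List.mem_map.1 hg
    exact ⟨p.1, p.2, tSw_ne p hp, rfl⟩

theorem mem_aut_of {p : Equiv.Perm (Fin 100)} (h : ∀ u v, adjN (p u) (p v) = adjN u v) :
    vtE.permCongr p ∈ autV B0 := by
  intro x y
  obtain ⟨u, rfl⟩ := vtE.surjective x
  obtain ⟨v, rfl⟩ := vtE.surjective y
  rw [Equiv.permCongr_apply, Equiv.permCongr_apply, Equiv.symm_apply_apply, Equiv.symm_apply_apply]
  simp only [vtE_apply]
  rw [adj_iff, adj_iff, h]

theorem hasMove_B0 : HasMove B0 := by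
  refine ⟨vtE.permCongr tauE, mem_aut_of fun u v => tau_aut u v, ⟨0, by norm_num⟩, bk ⟨70, by norm_num⟩, ?_, ?_⟩
  · have h1 : (none : Option (Fin 22 ⊕ ↥B0)) = vtE 0 := (vt_zero (i := 0) rfl).symm
    rw [h1, Equiv.permCongr_apply, Equiv.symm_apply_apply]
    show vt (tauF 0) = _
    have h2 : tauF 0 = 1 := by decide +kernel
    rw [h2, vt_pt (by decide) (by decide)]
    rfl
  · have h1 : (some (Sum.inl ⟨0, by norm_num⟩) : Option (Fin 22 ⊕ ↥B0)) = vtE 1 :=
      (vt_pt (i := 1) (by decide) (by decide)).symm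
    rw [h1, Equiv.permCongr_apply, Equiv.symm_apply_apply]
    show vt (tauF 1) = _
    have h2 : tauF 1 = 93 := by decide +kernel
    rw [h2, vt_bk (by decide)]
    rfl

theorem hasOdd_B0 : HasOdd B0 := by
  have hm : vtE.permCongr tE ∈ autV B0 := mem_aut_of fun u v => by
    rw [tE_apply, tE_apply]
    exact t_aut u v
  have h0 : vtE.permCongr tE none = none := by
    have h1 : (none : Option (Fin 22 ⊕ ↥B0)) = vtE 0 := (vt_zero (i := 0) rfl).symm
    rw [h1, Equiv.permCongr_apply, Equiv.symm_apply_apply]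
    show vt (tE 0) = vt 0
    have h2 : tE 0 = 0 := Fin.ext (by rw [tE_apply]; rfl)
    rw [h2]
  obtain ⟨σ, hσ⟩ := hat_surj hm h0
  refine ⟨σ, ?_⟩
  rw [hσ]
  have h1 : sgnV B0 (vtE.permCongr tE) = Equiv.Perm.sign tE := by
    letI : DecidableEq (Option (Fin 22 ⊕ ↥B0)) := Classical.decEq _
    letI : Fintype (Option (Fin 22 ⊕ ↥B0)) := Fintype.ofFinite _
    exact Equiv.Perm.sign_permCongr vtE tE
  rw [h1, sign_tE]

end Cfsg.Agent.Lib.SteinerU.HsM

namespace Cfsg.Agent.Lib.SteinerU

variable {α : Type u} [Fintype α] [DecidableEq α] {B : Set (Finset α)}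

theorem hs_hyps (hα : Fintype.card α = 22) (hB : IsSteinerSystem 3 6 B) : HasMove B ∧ HasOdd B := by
  obtain ⟨j0, h0⟩ := exists_emb_22 (α := Fin 22) (by simp) HsM.B0_steiner
  obtain ⟨j, h⟩ := exists_emb_22 hα hB
  obtain ⟨e, he⟩ := h0.iso h HsM.B0_steiner hB (by rw [S2_card])
  obtain ⟨h1, h2⟩ := transfer_hs e he
  exact ⟨h1 HsM.hasMove_B0, h2 HsM.hasOdd_B0⟩

theorem card_graph_aut (hα : Fintype.card α = 22) (hB : IsSteinerSystem 3 6 B) :
    Nat.card (pointBlockGraph B ≃g pointBlockGraph B) = 88704000 := by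
  rw [Nat.card_congr (autEquiv B).toEquiv]
  exact card_autV hα hB (hs_hyps hα hB).1

theorem exists_HS (hα : Fintype.card α = 22) (hB : IsSteinerSystem 3 6 B) :
    ∃ H : Subgroup (pointBlockGraph B ≃g pointBlockGraph B), IsHS H := by
  obtain ⟨hm, hodd⟩ := hs_hyps hα hB
  obtain ⟨j, h⟩ := exists_emb_22 hα hB
  refine ⟨HG B, ?_⟩
  haveI := simple_HP h hB hα hm hodd
  exact ⟨(HGequiv B).isSimpleGroup, by
    rw [Nat.card_congr (HGequiv B).toEquiv]
    exact card_HP h hB hα hm hodd⟩

end Cfsg.Agent.Lib.SteinerU
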