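/-
Uniqueness of the strongly regular graph with parameters `(100, 22, 0, 6)`.

The argument: the matrix `E = 2 J - 10 A + 20 I` satisfies `E ^ 2 = 100 E`, and the sum of cubes of
the entries of each of its rows vanishes.  Hence the triple products `∑ w, E x w * E y w * E z w`
all vanish (tightness of the Krein condition), so three pairwise nonadjacent vertices have exactly
two common neighbours.  Thus the neighbours of a vertex carry a Steiner system `S(3, 6, 22)`, and the
graph is its point-block graph.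
-/
import Cfsg.Agent.Lib.SteinerU.Levels
import Cfsg.Agent.Lib.Golay.SRG

set_option autoImplicit false

universe u v

namespace Cfsg.Agent.Lib.SteinerU.HsU

open Cfsg Cfsg.Agent.Lib.Golay.Steiner Finset

section sums

variable {V : Type u} [Fintype V]

theorem swap3 {A B C : Type u} [Fintype A] [Fintype B] [Fintype C] (F : A → B → C → ℤ) :
    ∑ a, ∑ b, ∑ c, F a b c = ∑ c, ∑ a, ∑ b, F a b c := by
  calc ∑ a, ∑ b, ∑ c, F a b c = ∑ a, ∑ c, ∑ b, F a b c :=
        Finset.sum_congr rfl fun a _ => Finset.sum_comm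
    _ = ∑ c, ∑ a, ∑ b, F a b c := Finset.sum_comm

theorem sum5 (e : V → V → ℤ) :
    ∑ x, ∑ y, ∑ z, (∑ w, e x w * e y w * e z w) ^ 2 = ∑ w, ∑ w', (∑ x, e x w * e x w') ^ 3 := by
  have h1 : ∀ x y z, (∑ w, e x w * e y w * e z w) ^ 2
      = ∑ w, ∑ w', (e x w * e x w') * (e y w * e y w') * (e z w * e z w') := by
    intro x y z
    rw [sq, Finset.sum_mul_sum]
    exact Finset.sum_congr rfl fun w _ => Finset.sum_congr rfl fun w' _ => by ring
  have h2 : ∀ w w', (∑ x, e x w * e x w') ^ 3
      = ∑ x, ∑ y, ∑ z, (e x w * e x w') * (e y w * e y w') * (e z w * e z w') := by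
    intro w w'
    rw [pow_three', Finset.sum_mul_sum, Finset.sum_mul]
    refine Finset.sum_congr rfl fun x _ => ?_
    rw [Finset.sum_mul]
    refine Finset.sum_congr rfl fun y _ => ?_
    rw [Finset.mul_sum]
  simp_rw [h1, h2]
  symm
  rw [swap3]
  refine Finset.sum_congr rfl fun x _ => ?_
  rw [swap3]
  refine Finset.sum_congr rfl fun y _ => ?_
  rw [swap3]

end sums

variable {V : Type u} [Fintype V] [DecidableEq V] (G : SimpleGraph V) [DecidableRel G.Adj]

/-- The numerical hypotheses. -/
structure Hyp : Prop where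
  card : Fintype.card V = 100
  deg : ∀ x, (univ.filter (G.Adj x)).card = 22
  tri : ∀ x y w, G.Adj x y → G.Adj x w → ¬ G.Adj y w
  com : ∀ x y, x ≠ y → ¬ G.Adj x y → (univ.filter (fun w => G.Adj x w ∧ G.Adj y w)).card = 6

/-- Adjacency indicator. -/
def a (x y : V) : ℤ := if G.Adj x y then 1 else 0

/-- Equality indicator. -/
def d (x y : V) : ℤ := if x = y then 1 else 0

/-- The entries of the idempotent. -/
def e (x y : V) : ℤ := 2 - 10 * a G x y + 20 * d x y

omit [Fintype V] in
theorem a_symm (x y : V) : a G x y = a G y x := by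
  simp only [a, G.adj_comm]

omit [Fintype V] [DecidableRel G.Adj] in
theorem d_symm (x y : V) : d x y = d y x := by
  simp only [d, eq_comm]

omit [Fintype V] in
theorem e_symm (x y : V) : e G x y = e G y x := by
  simp only [e, a_symm G x y, d_symm x y]

variable {G}

theorem sum_one (h : Hyp G) : ∑ _w : V, (1 : ℤ) = 100 := by
  simp [h.card]

theorem sum_a (h : Hyp G) (x : V) : ∑ w, a G x w = 22 := by
  simp only [a]
  rw [Finset.sum_boole, h.deg]
  rfl

omit [DecidableRel G.Adj] in
theorem sum_d (x : V) : ∑ w, d x w = 1 := by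
  simp [d]

theorem sum_aa (h : Hyp G) (x y : V) : ∑ w, a G x w * a G y w = 6 - 6 * a G x y + 16 * d x y := by
  by_cases hxy : x = y
  · subst hxy
    have h1 : ∀ w, a G x w * a G x w = a G x w := by
      intro w
      by_cases hw : G.Adj x w <;> simp [a, hw]
    simp only [h1, sum_a h]
    simp [a, d]
  · by_cases hadj : G.Adj x y
    · have h1 : ∀ w, a G x w * a G y w = 0 := by
        intro w
        by_cases hw : G.Adj x w
        · simp [a, h.tri x y w hadj hw]
        · simp [a, hw]
      simp only [h1, Finset.sum_const_zero]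
      simp [a, d, hadj, hxy]
    · have h1 : ∀ w, a G x w * a G y w = if G.Adj x w ∧ G.Adj y w then 1 else 0 := by
        intro w
        by_cases hw : G.Adj x w <;> by_cases hw' : G.Adj y w <;> simp [a, hw, hw']
      simp only [h1]
      rw [Finset.sum_boole, h.com x y hxy hadj]
      simp [a, d, hadj, hxy]

theorem sum_ad (x y : V) : ∑ w, a G x w * d y w = a G x y := by
  simp [d]

theorem sum_da (x y : V) : ∑ w, d x w * a G y w = a G y x := by
  simp [d]

omit [DecidableRel G.Adj] in
theorem sum_dd (x y : V) : ∑ w, d x w * d y w = d y x := by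
  have h1 : ∀ w, d x w * d y w = if x = w then d y x else 0 := by
    intro w
    by_cases h : x = w
    · subst h
      simp [d]
    · simp [d, h]
  simp only [h1]
  simp

theorem main_sq (h : Hyp G) (x y : V) : ∑ w, e G x w * e G y w = 100 * e G x y := by
  have h1 : ∑ w, e G x w * e G y w
      = 4 * ∑ _w : V, (1 : ℤ) - 20 * ∑ w, a G x w - 20 * ∑ w, a G y w + 40 * ∑ w, d x w
        + 40 * ∑ w, d y w + 100 * ∑ w, a G x w * a G y w - 200 * ∑ w, a G x w * d y w
        - 200 * ∑ w, d x w * a G y w + 400 * ∑ w, d x w * d y w := by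
    simp only [Finset.mul_sum, ← Finset.sum_add_distrib, ← Finset.sum_sub_distrib]
    refine Finset.sum_congr rfl fun w _ => ?_
    simp only [e]
    ring
  rw [h1, sum_one h, sum_a h, sum_a h, sum_d, sum_d, sum_aa h, sum_ad, sum_da, sum_dd,
    a_symm G y x, d_symm y x]
  simp only [e]
  ring

theorem cube_row (h : Hyp G) (x : V) : ∑ w, e G x w ^ 3 = 0 := by
  have h0 : ∀ w, e G x w ^ 3 = 8 * 1 - 520 * a G x w + 10640 * d x w := by
    intro w
    by_cases hw : x = w
    · subst hw
      simp [e, a, d]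
    · by_cases hw' : G.Adj x w <;> simp [e, a, d, hw, hw']
  simp only [h0]
  have h1 : ∑ w, (8 * 1 - 520 * a G x w + 10640 * d x w)
      = 8 * ∑ _w : V, (1 : ℤ) - 520 * ∑ w, a G x w + 10640 * ∑ w, d x w := by
    simp only [Finset.mul_sum, ← Finset.sum_add_distrib, ← Finset.sum_sub_distrib]
  rw [h1, sum_one h, sum_a h, sum_d]
  norm_num

theorem triple_zero (h : Hyp G) (x y z : V) : ∑ w, e G x w * e G y w * e G z w = 0 := by
  have h1 := sum5 (e G)
  have h2 : ∀ w w' : V, ∑ x, e G x w * e G x w' = 100 * e G w w' := by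
    intro w w'
    rw [← main_sq h]
    exact Finset.sum_congr rfl fun x _ => by rw [e_symm G x w, e_symm G x w']
  have h3 : ∑ w : V, ∑ w' : V, (∑ x, e G x w * e G x w') ^ 3 = 0 := by
    refine Finset.sum_eq_zero fun w _ => ?_
    simp only [h2, mul_pow]
    rw [← Finset.mul_sum, cube_row h, mul_zero]
  rw [h3] at h1
  have h4 := (Finset.sum_eq_zero_iff_of_nonneg (fun x _ => Finset.sum_nonneg fun y _ =>
    Finset.sum_nonneg fun z _ => sq_nonneg _)).1 h1 x (mem_univ _)
  have h5 := (Finset.sum_eq_zero_iff_of_nonneg (fun y _ =>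
    Finset.sum_nonneg fun z _ => sq_nonneg _)).1 h4 y (mem_univ _)
  have h6 := (Finset.sum_eq_zero_iff_of_nonneg (fun z _ => sq_nonneg _)).1 h5 z (mem_univ _)
  exact pow_eq_zero_iff (two_ne_zero) |>.1 h6

/-- Three pairwise nonadjacent vertices have exactly two common neighbours. -/
theorem triple_two (h : Hyp G) {x y z : V} (hxy : x ≠ y) (hxz : x ≠ z) (hyz : y ≠ z)
    (axy : ¬ G.Adj x y) (axz : ¬ G.Adj x z) (ayz : ¬ G.Adj y z) :
    (univ.filter (fun w => G.Adj x w ∧ G.Adj y w ∧ G.Adj z w)).card = 2 := by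
  have h0 : ∀ w, e G x w * e G y w * e G z w
      = 8 * 1 - 40 * (a G x w + a G y w + a G z w) + 80 * (d x w + d y w + d z w)
        + 200 * (a G x w * a G y w + a G x w * a G z w + a G y w * a G z w)
        - 1000 * (a G x w * a G y w * a G z w) := by
    intro w
    by_cases h1 : w = x
    · subst h1
      have h2 : ¬ G.Adj y w := fun h => axy h.symm
      have h3 : ¬ G.Adj z w := fun h => axz h.symm
      simp [e, a, d, h2, h3, hxy.symm, hxz.symm]
    · by_cases h2 : w = y
      · subst h2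
        have h3 : ¬ G.Adj z w := fun h => ayz h.symm
        simp [e, a, d, axy, h3, hxy, hyz.symm]
      · by_cases h3 : w = z
        · subst h3
          simp [e, a, d, axz, ayz, hxz, hyz]
        · have h1' : x ≠ w := fun e => h1 e.symm
          have h2' : y ≠ w := fun e => h2 e.symm
          have h3' : z ≠ w := fun e => h3 e.symm
          simp only [e, d, h1', h2', h3', if_false]
          ring
  have h1 := triple_zero h x y z
  simp only [h0] at h1
  have h2 : ∑ w, (8 * 1 - 40 * (a G x w + a G y w + a G z w) + 80 * (d x w + d y w + d z w)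
        + 200 * (a G x w * a G y w + a G x w * a G z w + a G y w * a G z w)
        - 1000 * (a G x w * a G y w * a G z w))
      = 8 * ∑ _w : V, (1 : ℤ) - 40 * (∑ w, a G x w + ∑ w, a G y w + ∑ w, a G z w)
        + 80 * (∑ w, d x w + ∑ w, d y w + ∑ w, d z w)
        + 200 * (∑ w, a G x w * a G y w + ∑ w, a G x w * a G z w + ∑ w, a G y w * a G z w)
        - 1000 * ∑ w, a G x w * a G y w * a G z w := by
    simp only [Finset.mul_sum, ← Finset.sum_add_distrib, ← Finset.sum_sub_distrib]
  rw [h2, sum_one h, sum_a h, sum_a h, sum_a h, sum_d, sum_d, sum_d, sum_aa h, sum_aa h, sum_aa h] at h1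
  have h3 : ∑ w, a G x w * a G y w * a G z w
      = ((univ.filter (fun w => G.Adj x w ∧ G.Adj y w ∧ G.Adj z w)).card : ℤ) := by
    rw [← Finset.sum_boole]
    refine Finset.sum_congr rfl fun w _ => ?_
    by_cases h4 : G.Adj x w <;> by_cases h5 : G.Adj y w <;> by_cases h6 : G.Adj z w <;>
      simp [a, h4, h5, h6]
  rw [h3] at h1
  simp only [a, d, axy, axz, ayz, hxy, hxz, hyz, if_false] at h1
  omega

/-! ### The design on the neighbours of a vertex -/

section design

variable (G) (inf : V)

/-- The neighbours of `inf`. -/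
def P : Finset V := univ.filter (G.Adj inf)

/-- The block attached to a vertex. -/
def bl (b : V) : Finset ↥(P G inf) := univ.filter (fun p => G.Adj b p.1)

/-- The family of blocks. -/
def BB : Set (Finset ↥(P G inf)) := {s | ∃ b, b ≠ inf ∧ ¬ G.Adj inf b ∧ s = bl G inf b}

variable {G} {inf}

omit [DecidableEq V] in
theorem mem_P {v : V} : v ∈ P G inf ↔ G.Adj inf v := by
  simp [P]

omit [DecidableEq V] in
theorem mem_bl {b : V} {p : ↥(P G inf)} : p ∈ bl G inf b ↔ G.Adj b p.1 := by
  simp [bl]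

omit [DecidableEq V] in
theorem card_filter_sub (Q : V → Prop) [DecidablePred Q] :
    (univ.filter (fun p : ↥(P G inf) => Q p.1)).card
      = (univ.filter (fun w => G.Adj inf w ∧ Q w)).card := by
  refine Finset.card_bij (fun p _ => p.1) ?_ ?_ ?_
  · intro p hp
    simp only [mem_filter, mem_univ, true_and] at hp ⊢
    exact ⟨mem_P.1 p.2, hp⟩
  · intro p _ q _ hpq
    exact Subtype.ext hpq
  · intro w hw
    simp only [mem_filter, mem_univ, true_and] at hw
    exact ⟨⟨w, mem_P.2 hw.1⟩, by simp [hw.2], rfl⟩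

theorem card_P (h : Hyp G) : Fintype.card ↥(P G inf) = 22 := by
  rw [Fintype.card_coe, P, h.deg]

theorem card_bl (h : Hyp G) {b : V} (h0 : b ≠ inf) (h1 : ¬ G.Adj inf b) :
    (bl G inf b).card = 6 := by
  rw [bl, card_filter_sub (inf := inf) (fun w => G.Adj b w)]
  exact h.com inf b h0.symm h1

theorem card_inter (h : Hyp G) {b c : V} (hb : b ≠ inf) (hb' : ¬ G.Adj inf b) (hc : c ≠ inf)
    (hc' : ¬ G.Adj inf c) (hbc : b ≠ c) (hadj : ¬ G.Adj b c) :
    (bl G inf b ∩ bl G inf c).card = 2 := by
  have h1 : bl G inf b ∩ bl G inf c = univ.filter (fun p : ↥(P G inf) => G.Adj b p.1 ∧ G.Adj c p.1) := by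
    ext p
    simp [mem_bl]
  rw [h1, card_filter_sub (inf := inf) (fun w => G.Adj b w ∧ G.Adj c w)]
  exact triple_two h hb.symm hc.symm hbc hb' hc' hadj

/-- The unique extra common neighbour of three points. -/
theorem exists_block (h : Hyp G) {p q r : V} (hp : G.Adj inf p) (hq : G.Adj inf q) (hr : G.Adj inf r)
    (hpq : p ≠ q) (hpr : p ≠ r) (hqr : q ≠ r) :
    ∃ b, b ≠ inf ∧ G.Adj p b ∧ G.Adj q b ∧ G.Adj r b ∧
      ∀ c, c ≠ inf → G.Adj p c → G.Adj q c → G.Adj r c → c = b := by
  have h1 := triple_two h hpq hpr hqr (h.tri inf p q hp hq) (h.tri inf p r hp hr) (h.tri inf q r hq hr)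
  obtain ⟨u, v, huv, hs⟩ := Finset.card_eq_two.1 h1
  have hmem : ∀ w, (G.Adj p w ∧ G.Adj q w ∧ G.Adj r w) ↔ (w = u ∨ w = v) := by
    intro w
    have := Finset.ext_iff.1 hs w
    simpa using this
  have hinf := (hmem inf).1 ⟨hp.symm, hq.symm, hr.symm⟩
  rcases hinf with hinf | hinf
  · refine ⟨v, ?_, ?_⟩
    · rw [hinf]
      exact huv.symm
    · have := (hmem v).2 (Or.inr rfl)
      refine ⟨this.1, this.2.1, this.2.2, ?_⟩
      intro c hc h1 h2 h3
      rcases (hmem c).1 ⟨h1, h2, h3⟩ with h4 | h4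
      · exact absurd (h4.trans hinf.symm) hc
      · exact h4
  · refine ⟨u, ?_, ?_⟩
    · rw [hinf]
      exact huv
    · have := (hmem u).2 (Or.inl rfl)
      refine ⟨this.1, this.2.1, this.2.2, ?_⟩
      intro c hc h1 h2 h3
      rcases (hmem c).1 ⟨h1, h2, h3⟩ with h4 | h4
      · exact h4
      · exact absurd (h4.trans hinf.symm) hc

theorem steiner (h : Hyp G) : IsSteinerSystem 3 6 (BB G inf) := by
  constructor
  · rintro s ⟨b, h0, h1, rfl⟩
    exact card_bl h h0 h1
  · intro s hs
    obtain ⟨p, q, r, hpq, hpr, hqr, rfl⟩ := Finset.card_eq_three.1 hs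
    have hpq' : p.1 ≠ q.1 := fun e => hpq (Subtype.ext e)
    have hpr' : p.1 ≠ r.1 := fun e => hpr (Subtype.ext e)
    have hqr' : q.1 ≠ r.1 := fun e => hqr (Subtype.ext e)
    obtain ⟨b, hb, h1, h2, h3, huniq⟩ := exists_block h (mem_P.1 p.2) (mem_P.1 q.2) (mem_P.1 r.2)
      hpq' hpr' hqr'
    have hb' : ¬ G.Adj inf b := h.tri p.1 inf b (mem_P.1 p.2).symm h1
    refine ⟨bl G inf b, ⟨⟨b, hb, hb', rfl⟩, ?_⟩, ?_⟩
    · intro w hw
      simp only [mem_insert, mem_singleton] at hw
      rcases hw with rfl | rfl | rfl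
      · exact mem_bl.2 h1.symm
      · exact mem_bl.2 h2.symm
      · exact mem_bl.2 h3.symm
    · rintro s ⟨⟨c, hc, hc', rfl⟩, hsub⟩
      have h4 : G.Adj c p.1 := mem_bl.1 (hsub (by simp))
      have h5 : G.Adj c q.1 := mem_bl.1 (hsub (by simp))
      have h6 : G.Adj c r.1 := mem_bl.1 (hsub (by simp))
      rw [huniq c hc h4.symm h5.symm h6.symm]

/-- The identification of the vertices with the point-block graph. -/
noncomputable def psi (G : SimpleGraph V) [DecidableRel G.Adj] (inf : V) (v : V) :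
    Option (↥(P G inf) ⊕ ↥(BB G inf)) :=
  if h0 : v = inf then none
  else if h1 : G.Adj inf v then some (Sum.inl ⟨v, mem_P.2 h1⟩)
  else some (Sum.inr ⟨bl G inf v, ⟨v, h0, h1, rfl⟩⟩)

theorem psi_inf : psi G inf inf = none := by
  simp [psi]

theorem psi_P {v : V} (h1 : G.Adj inf v) : psi G inf v = some (Sum.inl ⟨v, mem_P.2 h1⟩) := by
  have h0 : v ≠ inf := fun e => G.irrefl (e ▸ h1)
  simp [psi, h0, h1]

theorem psi_O {v : V} (h0 : v ≠ inf) (h1 : ¬ G.Adj inf v) :
    psi G inf v = some (Sum.inr ⟨bl G inf v, ⟨v, h0, h1, rfl⟩⟩) := by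
  simp [psi, h0, h1]

noncomputable local instance bbFintype : Fintype ↥(BB G inf) := Fintype.ofFinite _

theorem psi_surj : Function.Surjective (psi G inf) := by
  rintro (_ | p | ⟨s, b, h0, h1, rfl⟩)
  · exact ⟨inf, psi_inf⟩
  · exact ⟨p.1, psi_P (mem_P.1 p.2)⟩
  · exact ⟨b, psi_O h0 h1⟩

theorem card_BB (h : Hyp G) : Fintype.card ↥(BB G inf) = 77 := by
  rw [Fintype.card_eq_nat_card, Nat.card_coe_set_eq, ncard_eq_card_BF,
    lam0_3_6_22 (card_P h) (steiner h)]

theorem psi_bij (h : Hyp G) : Function.Bijective (psi G inf) := by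
  rw [Fintype.bijective_iff_surjective_and_card]
  refine ⟨psi_surj, ?_⟩
  rw [Fintype.card_option, Fintype.card_sum, card_BB h, card_P h, h.card]

theorem psi_adj_aux (h : Hyp G) {b c : V} (h0 : b ≠ inf) (h1 : ¬ G.Adj inf b) (h0' : c ≠ inf)
    (h1' : ¬ G.Adj inf c) :
    (⟨bl G inf b, ⟨b, h0, h1, rfl⟩⟩ : ↥(BB G inf)) ≠ ⟨bl G inf c, ⟨c, h0', h1', rfl⟩⟩
        ∧ Disjoint (bl G inf b) (bl G inf c) ↔ G.Adj b c := by
  constructor
  · rintro ⟨h2, h3⟩
    by_contra h4
    have hbc : b ≠ c := by
      rintro rfl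
      exact h2 rfl
    have h5 := card_inter h h0 h1 h0' h1' hbc h4
    rw [Finset.disjoint_iff_inter_eq_empty.1 h3] at h5
    simp at h5
  · intro h2
    have hdis : Disjoint (bl G inf b) (bl G inf c) := by
      rw [Finset.disjoint_left]
      intro p hp hp'
      exact h.tri b c p.1 h2 (mem_bl.1 hp) (mem_bl.1 hp')
    refine ⟨?_, hdis⟩
    intro e
    have h3 : bl G inf b = bl G inf c := congrArg Subtype.val e
    rw [← h3, Finset.disjoint_self_iff_empty] at hdis
    have h4 := card_bl h h0 h1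
    rw [hdis] at h4
    simp at h4

theorem psi_adj (h : Hyp G) (u v : V) :
    (pointBlockGraph (BB G inf)).Adj (psi G inf u) (psi G inf v) ↔ G.Adj u v := by
  by_cases hu : u = inf
  · subst hu
    by_cases hv : v = u
    · subst hv
      rw [psi_inf]
      exact iff_of_false (SimpleGraph.irrefl _) (SimpleGraph.irrefl _)
    · by_cases hv' : G.Adj u v
      · rw [psi_inf, psi_P hv']
        exact iff_of_true (pbg_adj_none_inl _) hv'
      · rw [psi_inf, psi_O hv hv']
        exact iff_of_false (pbg_adj_none_inr _) hv'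
  · by_cases hu' : G.Adj inf u
    · by_cases hv : v = inf
      · subst hv
        rw [psi_inf, psi_P hu']
        exact iff_of_true (pbg_adj_inl_none _) hu'.symm
      · by_cases hv' : G.Adj inf v
        · rw [psi_P hu', psi_P hv']
          exact iff_of_false (pbg_adj_inl_inl _ _) (h.tri _ _ _ hu' hv')
        · rw [psi_P hu', psi_O hv hv', pbg_adj_inl_inr]
          show _ ∈ bl G inf v ↔ _
          rw [mem_bl]
          exact G.adj_comm _ _
    · by_cases hv : v = inf
      · subst hv
        rw [psi_inf, psi_O hu hu']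
        exact iff_of_false (pbg_adj_inr_none _) (fun e => hu' e.symm)
      · by_cases hv' : G.Adj inf v
        · rw [psi_O hu hu', psi_P hv', pbg_adj_comm, pbg_adj_inl_inr]
          show _ ∈ bl G inf u ↔ _
          rw [mem_bl]
        · rw [psi_O hu hu', psi_O hv hv', pbg_adj_inr_inr]
          exact psi_adj_aux h hu hu' hv hv'

/-- The graph is the point-block graph of its design. -/
noncomputable def psiIso (h : Hyp G) : G ≃g pointBlockGraph (BB G inf) where
  toEquiv := Equiv.ofBijective _ (psi_bij h)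
  map_rel_iff' := by
    intro u v
    exact psi_adj h u v

end design

section transfer

variable {α : Type u} {β : Type v} [Fintype α] [Fintype β] [DecidableEq β] {B : Set (Finset α)}
  {B' : Set (Finset β)}

noncomputable local instance hsuFintypeC {γ : Type*} [Fintype γ] {C : Set (Finset γ)} : Fintype ↥C :=
  Fintype.ofFinite _

/-- An isomorphism of designs is an isomorphism of the point-block graphs. -/
theorem pbg_iso (hiso : SetSystemIso B B') : Nonempty (pointBlockGraph B ≃g pointBlockGraph B') := by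
  classical
  obtain ⟨e, he⟩ := hiso
  have hmem : ∀ b : ↥B, b.1.image e ∈ B' := fun b => he ▸ Set.mem_image_of_mem _ b.2
  let fB : ↥B → ↥B' := fun b => ⟨b.1.image e, hmem b⟩
  have hinj : Function.Injective fB := by
    intro a b hab
    apply Subtype.ext
    have h1 : a.1.image e = b.1.image e := congrArg Subtype.val hab
    exact Finset.image_injective e.injective h1
  have hsur : Function.Surjective fB := by
    rintro ⟨c, hc⟩
    rw [← he] at hc
    obtain ⟨b, hb, rfl⟩ := hc
    exact ⟨⟨b, hb⟩, rfl⟩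
  let eB : ↥B ≃ ↥B' := Equiv.ofBijective fB ⟨hinj, hsur⟩
  let ι : Option (α ⊕ B) ≃ Option (β ⊕ B') := Equiv.optionCongr (Equiv.sumCongr e eB)
  have ι_none : ι none = none := rfl
  have ι_inl : ∀ a, ι (some (Sum.inl a)) = some (Sum.inl (e a)) := fun _ => rfl
  have ι_inr : ∀ b, ι (some (Sum.inr b)) = some (Sum.inr (eB b)) := fun _ => rfl
  have hadj : ∀ x y, (pointBlockGraph B').Adj (ι x) (ι y) ↔ (pointBlockGraph B).Adj x y := by
    intro u v
    rcases u with _ | a | b <;> rcases v with _ | a' | b'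
    · exact iff_of_false (SimpleGraph.irrefl _) (SimpleGraph.irrefl _)
    · rw [ι_none, ι_inl]
      exact iff_of_true (pbg_adj_none_inl _) (pbg_adj_none_inl _)
    · rw [ι_none, ι_inr]
      exact iff_of_false (pbg_adj_none_inr _) (pbg_adj_none_inr _)
    · rw [ι_none, ι_inl]
      exact iff_of_true (pbg_adj_inl_none _) (pbg_adj_inl_none _)
    · rw [ι_inl, ι_inl]
      exact iff_of_false (pbg_adj_inl_inl _ _) (pbg_adj_inl_inl _ _)
    · rw [ι_inl, ι_inr, pbg_adj_inl_inr, pbg_adj_inl_inr]
      show e a ∈ b'.1.image e ↔ _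
      exact e.injective.mem_finset_image
    · rw [ι_none, ι_inr]
      exact iff_of_false (pbg_adj_inr_none _) (pbg_adj_inr_none _)
    · rw [ι_inl, ι_inr, pbg_adj_comm, pbg_adj_inl_inr, pbg_adj_comm, pbg_adj_inl_inr]
      show e a' ∈ b.1.image e ↔ _
      exact e.injective.mem_finset_image
    · rw [ι_inr, ι_inr, pbg_adj_inr_inr, pbg_adj_inr_inr]
      have h1 : eB b ≠ eB b' ↔ b ≠ b' := not_congr eB.injective.eq_iff
      have h2 : Disjoint (eB b).1 (eB b').1 ↔ Disjoint b.1 b'.1 := by
        show Disjoint (b.1.image e) (b'.1.image e) ↔ _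
        exact Finset.disjoint_image e.injective
      rw [h1, h2]
  exact ⟨{ toEquiv := ι, map_rel_iff' := fun {x y} => hadj x y }⟩

end transfer

/-- The numerical hypotheses follow from strong regularity. -/
theorem hyp_of_srg {V : Type u} [Fintype V] [DecidableEq V] {G : SimpleGraph V} [DecidableRel G.Adj]
    (hG : G.IsSRGWith 100 22 0 6) : Hyp G := by
  refine ⟨hG.card, ?_, ?_, ?_⟩
  · intro x
    have h1 := hG.regular x
    rw [← h1, ← SimpleGraph.card_neighborFinset_eq_degree]
    congr 1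
    ext w
    simp
  · intro x y w hxy hxw hyw
    have h1 := hG.of_adj x y hxy
    have h2 : w ∈ G.commonNeighbors x y := (SimpleGraph.mem_commonNeighbors G).2 ⟨hxw, hyw⟩
    have h3 : 0 < Fintype.card ↥(G.commonNeighbors x y) :=
      Fintype.card_pos_iff.2 ⟨⟨w, h2⟩⟩
    omega
  · intro x y hxy hadj
    have h1 := hG.of_not_adj hxy hadj
    rw [← h1]
    symm
    refine Fintype.card_of_subtype _ ?_
    intro w
    simp [SimpleGraph.mem_commonNeighbors]

/-- Uniqueness of the strongly regular graph with parameters `(100, 22, 0, 6)`. -/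
theorem srg_unique {V : Type u} {W : Type v} [Fintype V] [Fintype W] {G : SimpleGraph V}
    {H : SimpleGraph W} [DecidableRel G.Adj] [DecidableRel H.Adj] (hG : G.IsSRGWith 100 22 0 6)
    (hH : H.IsSRGWith 100 22 0 6) : Nonempty (G ≃g H) := by
  classical
  have hG' := hyp_of_srg hG
  have hH' := hyp_of_srg hH
  have hV : Nonempty V := Fintype.card_pos_iff.1 (by rw [hG'.card]; norm_num)
  have hW : Nonempty W := Fintype.card_pos_iff.1 (by rw [hH'.card]; norm_num)
  obtain ⟨x⟩ := hV
  obtain ⟨y⟩ := hW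
  obtain ⟨j, hj⟩ := exists_emb_22 (card_P (inf := x) hG') (steiner (inf := x) hG')
  obtain ⟨j', hj'⟩ := exists_emb_22 (card_P (inf := y) hH') (steiner (inf := y) hH')
  have hiso : SetSystemIso (BB G x) (BB H y) :=
    hj.iso hj' (steiner hG') (steiner hH') (by rw [S2_card])
  obtain ⟨i⟩ := pbg_iso hiso
  exact ⟨(psiIso hG').trans (i.trans (psiIso hH').symm)⟩

end Cfsg.Agent.Lib.SteinerU.HsU
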